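import Cfsg.Agent.Chars.Basic

/-!
# Averaging operators on matrices and the algebra map attached to an irreducible representation

For matrix representations `σ`, `τ` of a finite group and a linear character `l`, the operator
`X ↦ |K|⁻¹ ∑ l(k) σ(k) X τ(k⁻¹)` is idempotent with trace given by the characters.  From this:
Schur's lemma, the expansion of any matrix in an irreducible representation, and the algebra map
`phi` from the full matrix algebra into any representation with proportional character.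
-/

set_option autoImplicit false

namespace CfsgLib.OddSection

open Cfsg Matrix

universe u

/-- Every irreducible character is afforded by a matrix representation. -/
theorem exists_matRep {G : Type u} [Group G] (χ : IrrCharacter G) :
    ∃ (n : ℕ) (σ : G →* Matrix (Fin n) (Fin n) ℂ), ∀ g, (χ : G → ℂ) g = (σ g).trace := by
  obtain ⟨n, ρ, -, hρ⟩ := χ.2
  refine ⟨n, (LinearMap.toMatrixAlgEquiv' : _ ≃ₐ[ℂ] Matrix (Fin n) (Fin n) ℂ).toMonoidHom.comp ρ,
    fun g => ?_⟩
  rw [← hρ, Representation.character,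
    LinearMap.trace_eq_matrix_trace ℂ (Pi.basisFun ℂ (Fin n)) (ρ g)]
  rfl

variable {m n : Type*} [Fintype m] [Fintype n] [DecidableEq m] [DecidableEq n]

/-- `X ↦ A X B`. -/
noncomputable def conjMap (A : Matrix m m ℂ) (B : Matrix n n ℂ) :
    Matrix m n ℂ →ₗ[ℂ] Matrix m n ℂ where
  toFun X := A * X * B
  map_add' X Y := by rw [Matrix.mul_add, Matrix.add_mul]
  map_smul' c X := by rw [Matrix.mul_smul, Matrix.smul_mul]; rfl

@[simp] theorem conjMap_apply (A : Matrix m m ℂ) (B : Matrix n n ℂ) (X : Matrix m n ℂ) :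
    conjMap A B X = A * X * B := rfl

theorem trace_conjMap (A : Matrix m m ℂ) (B : Matrix n n ℂ) :
    LinearMap.trace ℂ _ (conjMap A B) = A.trace * B.trace := by
  rw [LinearMap.trace_eq_matrix_trace ℂ (Matrix.stdBasis ℂ m n), Matrix.trace, Matrix.trace,
    Matrix.trace, Finset.sum_mul_sum, Fintype.sum_prod_type]
  refine Finset.sum_congr rfl fun i _ => Finset.sum_congr rfl fun j _ => ?_
  rw [Matrix.diag_apply, LinearMap.toMatrix_apply, Matrix.stdBasis_eq_single, conjMap_apply]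
  simp [Matrix.stdBasis, Matrix.mul_apply, Matrix.single, ite_and]

variable {K : Type*} [Group K] [Fintype K]

/-- The twisted averaging operator. -/
noncomputable def avg (σ : K →* Matrix m m ℂ) (τ : K →* Matrix n n ℂ) (l : K →* ℂˣ) :
    Matrix m n ℂ →ₗ[ℂ] Matrix m n ℂ :=
  (Nat.card K : ℂ)⁻¹ • ∑ k : K, (l k : ℂ) • conjMap (σ k) (τ k⁻¹)

variable (σ : K →* Matrix m m ℂ) (τ : K →* Matrix n n ℂ) (l : K →* ℂˣ)

theorem avg_apply (X : Matrix m n ℂ) :
    avg σ τ l X = (Nat.card K : ℂ)⁻¹ • ∑ k : K, (l k : ℂ) • (σ k * X * τ k⁻¹) := by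
  simp [avg]

theorem avg_shift (y : K) (X : Matrix m n ℂ) :
    (l y : ℂ) • (σ y * avg σ τ l X * τ y⁻¹) = avg σ τ l X := by
  rw [avg_apply, Matrix.mul_smul, Matrix.smul_mul, smul_comm, Matrix.mul_sum, Matrix.sum_mul,
    Finset.smul_sum]
  congr 1
  refine Fintype.sum_equiv (Equiv.mulLeft y) _ _ fun k => ?_
  rw [Matrix.mul_smul, Matrix.smul_mul, smul_smul, Equiv.coe_mulLeft, map_mul l, Units.val_mul,
    map_mul σ, _root_.mul_inv_rev, map_mul τ]
  simp only [Matrix.mul_assoc]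

theorem avg_avg (X : Matrix m n ℂ) : avg σ τ l (avg σ τ l X) = avg σ τ l X := by
  rw [avg_apply σ τ l (avg σ τ l X)]
  simp only [avg_shift]
  rw [Finset.sum_const, Finset.card_univ, ← Nat.cast_smul_eq_nsmul ℂ, smul_smul,
    Nat.card_eq_fintype_card, inv_mul_cancel₀ (Nat.cast_ne_zero.2 Fintype.card_ne_zero), one_smul]

theorem trace_avg : LinearMap.trace ℂ _ (avg σ τ l) =
    (Nat.card K : ℂ)⁻¹ * ∑ k : K, (l k : ℂ) * ((σ k).trace * (τ k⁻¹).trace) := by
  simp [avg, trace_conjMap]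

theorem avg_finrank :
    (Module.finrank ℂ (LinearMap.range (avg σ τ l)) : ℂ) = LinearMap.trace ℂ _ (avg σ τ l) := by
  have hP : LinearMap.IsProj (LinearMap.range (avg σ τ l)) (avg σ τ l) :=
    ⟨fun x => LinearMap.mem_range_self _ x, by rintro _ ⟨y, rfl⟩; exact avg_avg σ τ l y⟩
  exact (LinearMap.IsProj.trace hP).symm

theorem avg_eq_zero (h : ∑ k : K, (l k : ℂ) * ((σ k).trace * (τ k⁻¹).trace) = 0) :
    avg σ τ l = 0 := by
  have h1 := avg_finrank σ τ l
  rw [trace_avg, h, mul_zero, Nat.cast_eq_zero, Submodule.finrank_eq_zero,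
    LinearMap.range_eq_bot] at h1
  exact h1

theorem avg_eq_of_fixed (X : Matrix m n ℂ) (h : ∀ k, (l k : ℂ) • (σ k * X * τ k⁻¹) = X) :
    avg σ τ l X = X := by
  rw [avg_apply]
  simp only [h]
  rw [Finset.sum_const, Finset.card_univ, ← Nat.cast_smul_eq_nsmul ℂ, smul_smul,
    Nat.card_eq_fintype_card, inv_mul_cancel₀ (Nat.cast_ne_zero.2 Fintype.card_ne_zero), one_smul]

theorem rep_mul_inv (k : K) : σ k * σ k⁻¹ = 1 := by rw [← map_mul, mul_inv_cancel, map_one]

theorem rep_inv_mul (k : K) : σ k⁻¹ * σ k = 1 := by rw [← map_mul, inv_mul_cancel, map_one]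

/-- A matrix representation has irreducible character. -/
def IsIrrRep : Prop := ∑ k : K, (σ k).trace * (σ k⁻¹).trace = (Nat.card K : ℂ)

theorem isIrrRep_of_irr (θ : IrrCharacter K) (h : ∀ k, (θ : K → ℂ) k = (σ k).trace) :
    IsIrrRep σ := by
  classical
  have h1 := CfsgLib.Chars.sum_mul_map_inv θ θ
  rw [if_pos rfl] at h1
  simpa [IsIrrRep, h, Nat.card_eq_fintype_card] using h1

variable {σ}

theorem IsIrrRep.nonempty (hσ : IsIrrRep σ) : Nonempty m := by
  by_contra h
  rw [not_nonempty_iff] at h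
  have h1 : ∀ X : Matrix m m ℂ, X.trace = 0 := fun X => by simp [Matrix.trace]
  rw [IsIrrRep] at hσ
  simp only [h1, mul_zero, Finset.sum_const_zero] at hσ
  exact Nat.cast_ne_zero.2 Nat.card_pos.ne' hσ.symm

theorem IsIrrRep.exists_scalar (hσ : IsIrrRep σ) (X : Matrix m m ℂ)
    (h : ∀ k, σ k * X = X * σ k) : ∃ c : ℂ, X = c • 1 := by
  haveI := hσ.nonempty
  have hfix : ∀ Y : Matrix m m ℂ, (∀ k, σ k * Y = Y * σ k) → avg σ σ 1 Y = Y := by
    intro Y hY
    refine avg_eq_of_fixed σ σ 1 Y fun k => ?_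
    rw [MonoidHom.one_apply, Units.val_one, one_smul, hY, Matrix.mul_assoc, rep_mul_inv,
      Matrix.mul_one]
  have hr : Module.finrank ℂ (LinearMap.range (avg σ σ 1)) = 1 := by
    apply Nat.cast_injective (R := ℂ)
    rw [avg_finrank, trace_avg, Nat.cast_one]
    simp only [MonoidHom.one_apply, Units.val_one, one_mul]
    rw [show ∑ k : K, (σ k).trace * (σ k⁻¹).trace = (Nat.card K : ℂ) from hσ,
      inv_mul_cancel₀ (Nat.cast_ne_zero.2 Nat.card_pos.ne')]
  obtain ⟨c, hc⟩ := exists_smul_eq_of_finrank_eq_one hr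
    (x := ⟨1, 1, hfix 1 fun k => by rw [Matrix.one_mul, Matrix.mul_one]⟩)
    (by simp [Subtype.ext_iff]) ⟨X, X, hfix X h⟩
  exact ⟨c, (congrArg Subtype.val hc).symm⟩

theorem IsIrrRep.avg_one (hσ : IsIrrRep σ) (X : Matrix m m ℂ) :
    avg σ σ 1 X = (X.trace / Fintype.card m) • 1 := by
  haveI := hσ.nonempty
  obtain ⟨c, hc⟩ := hσ.exists_scalar (avg σ σ 1 X) fun y => by
    have h := avg_shift σ σ 1 y X
    rw [MonoidHom.one_apply, Units.val_one, one_smul] at h
    conv_rhs => rw [← h, Matrix.mul_assoc, rep_inv_mul, Matrix.mul_one]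
  have ht : (avg σ σ 1 X).trace = X.trace := by
    rw [avg_apply, Matrix.trace_smul, Matrix.trace_sum]
    simp only [MonoidHom.one_apply, Units.val_one, one_smul]
    simp only [Matrix.trace_mul_cycle, rep_inv_mul, Matrix.one_mul]
    rw [Finset.sum_const, Finset.card_univ, ← Nat.cast_smul_eq_nsmul ℂ, smul_smul,
      Nat.card_eq_fintype_card, inv_mul_cancel₀ (Nat.cast_ne_zero.2 Fintype.card_ne_zero), one_smul]
  have hm : (Fintype.card m : ℂ) ≠ 0 := Nat.cast_ne_zero.2 Fintype.card_ne_zero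
  rw [hc, Matrix.trace_smul, Matrix.trace_one, smul_eq_mul] at ht
  rw [hc, ← ht, mul_div_cancel_right₀ c hm]

theorem IsIrrRep.expand (hσ : IsIrrRep σ) (X : Matrix m m ℂ) :
    ((Fintype.card m : ℂ) / Nat.card K) • ∑ k : K, (X * σ k⁻¹).trace • σ k = X := by
  haveI := hσ.nonempty
  have hm : (Fintype.card m : ℂ) ≠ 0 := Nat.cast_ne_zero.2 Fintype.card_ne_zero
  have hK : (Nat.card K : ℂ) ≠ 0 := Nat.cast_ne_zero.2 Nat.card_pos.ne'
  ext i j
  have key : ∀ a b, ∑ k : K, σ k i j * σ k⁻¹ b a =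
      if j = b ∧ i = a then (Nat.card K : ℂ) / Fintype.card m else 0 := by
    intro a b
    have h := congrArg (fun M : Matrix m m ℂ => M i a) (hσ.avg_one (Matrix.single j b (1 : ℂ)))
    simp only [avg_apply, MonoidHom.one_apply, Units.val_one, one_smul, Matrix.smul_apply,
      Matrix.sum_apply, smul_eq_mul] at h
    rw [inv_mul_eq_iff_eq_mul₀ hK] at h
    have h2 : ∀ k : K, (σ k * Matrix.single j b (1 : ℂ) * σ k⁻¹ : Matrix m m ℂ) i a =
        σ k i j * σ k⁻¹ b a := by
      intro k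
      simp [Matrix.mul_apply, Matrix.single, ite_and]
    simp only [h2] at h
    rw [h]
    rcases eq_or_ne j b with rfl | hjb
    · rw [Matrix.trace_single_eq_same, Matrix.one_apply]
      rcases eq_or_ne i a with rfl | hia
      · simp [div_eq_mul_inv]
      · simp [hia]
    · rw [Matrix.trace_single_eq_of_ne _ _ _ hjb]
      simp [hjb]
  rw [Matrix.smul_apply, Matrix.sum_apply]
  simp only [Matrix.trace, Matrix.diag_apply, Matrix.mul_apply, Matrix.smul_apply, smul_eq_mul,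
    Finset.sum_mul]
  rw [Finset.sum_comm]
  simp only [Finset.sum_comm (s := (Finset.univ : Finset K))]
  simp only [mul_assoc, ← Finset.mul_sum, mul_comm (σ _⁻¹ _ _) (σ _ i j), key, ite_and, mul_ite,
    mul_zero, Finset.sum_ite_eq, Finset.mem_univ, if_true]
  field_simp

variable (σ) (ρ : K →* Matrix n n ℂ)

/-- The linear map sending `ρ k` to `σ k`. -/
noncomputable def phiLin : Matrix n n ℂ →ₗ[ℂ] Matrix m m ℂ where
  toFun X := ((Fintype.card n : ℂ) / Nat.card K) • ∑ k : K, (X * ρ k⁻¹).trace • σ k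
  map_add' X Y := by
    simp [Matrix.add_mul, Matrix.trace_add, add_smul, Finset.sum_add_distrib]
  map_smul' c X := by
    simp only [Matrix.smul_mul, Matrix.trace_smul, smul_eq_mul, ← smul_smul, ← Finset.smul_sum,
      RingHom.id_apply]
    rw [smul_comm]

theorem phiLin_apply (X : Matrix n n ℂ) :
    phiLin σ ρ X = ((Fintype.card n : ℂ) / Nat.card K) • ∑ k : K, (X * ρ k⁻¹).trace • σ k := rfl

theorem phiLin_ext {V : Type*} [AddCommMonoid V] [Module ℂ V] {ρ : K →* Matrix n n ℂ}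
    (hρ : IsIrrRep ρ) {f g : Matrix n n ℂ →ₗ[ℂ] V} (h : ∀ k, f (ρ k) = g (ρ k)) : f = g := by
  refine LinearMap.ext fun X => ?_
  rw [← hρ.expand X]
  simp only [map_smul, map_sum, h]

/-- The hypothesis: `σ` has character proportional to that of `ρ`, with correct degree. -/
def IsMultiple : Prop := ∃ c : ℂ, ∀ k, (σ k).trace = c * (ρ k).trace

variable {σ ρ}

theorem phiLin_rep (σ : K →* Matrix m m ℂ) (ρ : K →* Matrix n n ℂ) (y : K) :
    phiLin σ ρ (ρ y) = phiLin σ ρ 1 * σ y := by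
  rw [phiLin_apply, phiLin_apply, Matrix.smul_mul, Matrix.sum_mul]
  congr 1
  refine Fintype.sum_equiv (Equiv.mulRight y⁻¹) _ _ fun k => ?_
  simp only [Equiv.coe_mulRight, Matrix.smul_mul, ← map_mul, inv_mul_cancel_right, Matrix.one_mul,
    _root_.mul_inv_rev, inv_inv]

theorem phiLin_one (hρ : IsIrrRep ρ) (hσ : IsMultiple σ ρ) : phiLin σ ρ 1 = 1 := by
  obtain ⟨c, hc⟩ := hσ
  have hK : (Nat.card K : ℂ) ≠ 0 := Nat.cast_ne_zero.2 Nat.card_pos.ne'
  have hmul : ∀ y, phiLin σ ρ (ρ y) = phiLin σ ρ 1 * σ y := phiLin_rep σ ρ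
  have hEE : phiLin σ ρ 1 * phiLin σ ρ 1 = phiLin σ ρ 1 := by
    conv_lhs => arg 2; rw [phiLin_apply]
    rw [Matrix.mul_smul, Matrix.mul_sum]
    simp only [Matrix.mul_smul, ← hmul, ← map_smul, ← map_sum]
    rw [hρ.expand]
  have htr : (phiLin σ ρ 1).trace = Fintype.card m := by
    rw [phiLin_apply, Matrix.trace_smul, Matrix.trace_sum]
    simp only [Matrix.one_mul, Matrix.trace_smul, smul_eq_mul, hc, ← mul_assoc, mul_comm _ c]
    simp only [mul_assoc, ← Finset.mul_sum, mul_comm ((ρ _⁻¹).trace)]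
    rw [show ∑ k : K, (ρ k).trace * (ρ k⁻¹).trace = (Nat.card K : ℂ) from hρ]
    have h1 := hc 1
    rw [map_one, map_one, Matrix.trace_one, Matrix.trace_one] at h1
    rw [h1]
    field_simp
  have hid : IsIdempotentElem (1 - phiLin σ ρ 1) :=
    (show IsIdempotentElem (phiLin σ ρ 1) from hEE).one_sub
  have h0 : Matrix.trace (1 - phiLin σ ρ 1) = 0 := by
    rw [Matrix.trace_sub, htr, Matrix.trace_one, sub_self]
  have hP : LinearMap.IsProj (LinearMap.range (Matrix.toLin' (1 - phiLin σ ρ 1)))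
      (Matrix.toLin' (1 - phiLin σ ρ 1)) :=
    ⟨fun x => LinearMap.mem_range_self _ x, by
      rintro _ ⟨y, rfl⟩
      rw [← LinearMap.comp_apply, ← Matrix.toLin'_mul, hid.eq]⟩
  have h2 := LinearMap.IsProj.trace hP
  rw [Matrix.trace_toLin'_eq, h0, eq_comm, Nat.cast_eq_zero, Submodule.finrank_eq_zero,
    LinearMap.range_eq_bot, LinearEquiv.map_eq_zero_iff, sub_eq_zero] at h2
  exact h2.symm

/-- The algebra map attached to `σ`, whose character is a multiple of that of `ρ`. -/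
noncomputable def phi (hρ : IsIrrRep ρ) (hσ : IsMultiple σ ρ) :
    Matrix n n ℂ →ₐ[ℂ] Matrix m m ℂ :=
  AlgHom.ofLinearMap (phiLin σ ρ) (phiLin_one hρ hσ) <| by
    have hval : ∀ y, phiLin σ ρ (ρ y) = σ y := fun y => by
      rw [phiLin_rep, phiLin_one hρ hσ, Matrix.one_mul]
    have h1 : ∀ k Y, phiLin σ ρ (ρ k * Y) = σ k * phiLin σ ρ Y := by
      intro k
      refine LinearMap.congr_fun (phiLin_ext hρ (f := (phiLin σ ρ).comp (LinearMap.mulLeft ℂ (ρ k)))
        (g := (LinearMap.mulLeft ℂ (σ k)).comp (phiLin σ ρ)) fun y => ?_)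
      simp [← map_mul, hval]
    intro X Y
    refine LinearMap.congr_fun (phiLin_ext hρ (f := (phiLin σ ρ).comp (LinearMap.mulRight ℂ Y))
      (g := (LinearMap.mulRight ℂ (phiLin σ ρ Y)).comp (phiLin σ ρ)) fun k => ?_) X
    simp [h1, hval]

theorem phi_rep (hρ : IsIrrRep ρ) (hσ : IsMultiple σ ρ) (k : K) : phi hρ hσ (ρ k) = σ k := by
  show phiLin σ ρ (ρ k) = σ k
  rw [phiLin_rep, phiLin_one hρ hσ, Matrix.one_mul]

theorem algHom_ext (hρ : IsIrrRep ρ) {B : Type*} [Semiring B] [Algebra ℂ B]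
    {f g : Matrix n n ℂ →ₐ[ℂ] B} (h : ∀ k, f (ρ k) = g (ρ k)) : f = g :=
  AlgHom.toLinearMap_injective (phiLin_ext hρ h)

end CfsgLib.OddSection
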