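import Cfsg.Agent.OddSection.Parity
import Mathlib.LinearAlgebra.PID

/-!
# The constituent of odd multiplicity
-/

set_option autoImplicit false

namespace CfsgLib.OddSection

open Cfsg Matrix

/-- The character of a compressed representation. -/
theorem isCharacter_compress {H : Type*} [Group H] [Fintype H] {m : Type*} [Fintype m]
    [DecidableEq m] (τ : H →* Matrix m m ℂ) (P : Matrix m m ℂ) (hP : P * P = P)
    (hc : ∀ h, τ h * P = P * τ h) : IsCharacter H (fun h => (P * τ h).trace) := by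
  let p : Submodule ℂ (m → ℂ) := LinearMap.range (Matrix.toLin' P)
  have hfix : ∀ v ∈ p, P *ᵥ v = v := by
    rintro _ ⟨w, rfl⟩
    rw [Matrix.toLin'_apply, Matrix.mulVec_mulVec, hP]
  have hmem : ∀ h, ∀ v ∈ p, Matrix.toLin' (τ h) v ∈ p := by
    intro h v hv
    refine ⟨Matrix.toLin' (τ h) v, ?_⟩
    rw [Matrix.toLin'_apply, Matrix.toLin'_apply, Matrix.mulVec_mulVec, ← hc,
      ← Matrix.mulVec_mulVec, hfix v hv]
  let R : Representation ℂ H p :=
    { toFun := fun h => (Matrix.toLin' (τ h)).restrict (hmem h)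
      map_one' := LinearMap.ext fun v => Subtype.ext (by simp)
      map_mul' := fun a b => LinearMap.ext fun v => Subtype.ext (by
        simp [map_mul τ, Matrix.toLin'_mul]) }
  have h1 := CfsgLib.Chars.isCharacter_character R
  have h2 : R.character = fun h => (P * τ h).trace := by
    funext h
    have hall : ∀ v, Matrix.toLin' (P * τ h) v ∈ p := fun v =>
      ⟨τ h *ᵥ v, by rw [Matrix.toLin'_apply, Matrix.toLin'_apply, Matrix.mulVec_mulVec]⟩
    have h3 := LinearMap.trace_restrict_eq_of_forall_mem p (Matrix.toLin' (P * τ h)) hall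
    rw [Matrix.trace_toLin'_eq] at h3
    rw [← h3]
    refine congrArg (LinearMap.trace ℂ p) ?_
    refine LinearMap.ext fun v => Subtype.ext ?_
    show Matrix.toLin' (τ h) v.1 = Matrix.toLin' (P * τ h) v.1
    rw [← hc, Matrix.toLin'_apply, Matrix.toLin'_apply, ← Matrix.mulVec_mulVec, hfix _ v.2]
  rwa [h2] at h1

/-- A function of norm one that is twice a character minus another is, when positive, the only
constituent of odd multiplicity of the latter. -/
theorem odd_constituent {H : Type*} [Group H] [Fintype H] {δ ψp f : H → ℂ} (hp : IsCharacter H ψp)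
    (hf : IsCharacter H f) (hδ : ∀ h, δ h = 2 * ψp h - f h) (hn : classInner δ δ = 1)
    (h1 : ∃ r : ℝ, 0 < r ∧ δ 1 = (r : ℂ)) :
    ∃ ψ : IrrCharacter H, (∀ h, (ψ : H → ℂ) h = δ h) ∧
      ∀ (ψ' : IrrCharacter H) (a : ℕ), classInner f (ψ' : H → ℂ) = (a : ℂ) →
        (Odd a ↔ ψ' = ψ) := by
  classical
  have hcp := fun ψ' => CfsgLib.Chars.exists_nat_classInner hp ψ'
  have hcf := fun ψ' => CfsgLib.Chars.exists_nat_classInner hf ψ'
  choose b hb using hcp
  choose c hc using hcf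
  have hcl : IsClassFunction H δ := by
    intro g x
    rw [hδ, hδ, CfsgLib.Chars.isClassFunction_of_isCharacter hp,
      CfsgLib.Chars.isClassFunction_of_isCharacter hf]
  have hin : ∀ ψ' : IrrCharacter H,
      classInner δ (ψ' : H → ℂ) = (((2 * b ψ' : ℤ) - c ψ' : ℤ) : ℂ) := by
    intro ψ'
    have h2 : δ = fun h => (2 * ψp h) + -f h := funext fun h => by rw [hδ, sub_eq_add_neg]
    rw [h2]
    push_cast
    rw [← hb ψ', ← hc ψ']
    simp only [classInner, add_mul, neg_mul, Finset.sum_add_distrib, Finset.sum_neg_distrib,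
      mul_assoc, ← Finset.mul_sum]
    ring
  have hsum : ∑ ψ' : IrrCharacter H, ((2 * b ψ' : ℤ) - c ψ') ^ 2 = 1 := by
    have h2 : ((∑ ψ' : IrrCharacter H, ((2 * b ψ' : ℤ) - c ψ') ^ 2 : ℤ) : ℂ) = 1 := by
      rw [← hn, CfsgLib.Chars.classInner_eq_sum hcl, Int.cast_sum]
      refine Finset.sum_congr rfl fun ψ' _ => ?_
      have h3 : classInner (ψ' : H → ℂ) δ = (starRingEnd ℂ) (classInner δ (ψ' : H → ℂ)) :=
        CfsgLib.Chars.Induced.classInner_comm_conj _ _
      rw [hin, map_intCast, Int.cast_pow, sq]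
    exact_mod_cast h2
  obtain ⟨ψ, hψ⟩ : ∃ ψ, ((2 * b ψ : ℤ) - c ψ) ≠ 0 := by
    by_contra hcon
    push Not at hcon
    rw [Finset.sum_eq_zero (fun ψ _ => by rw [hcon]; rfl)] at hsum
    exact zero_ne_one hsum
  have hothers : ∀ ψ', ψ' ≠ ψ → ((2 * b ψ' : ℤ) - c ψ') = 0 := by
    intro ψ' hne
    by_contra h0
    have h2 := Finset.add_le_sum (f := fun x : IrrCharacter H => ((2 * b x : ℤ) - c x) ^ 2)
      (fun i _ => sq_nonneg _) (Finset.mem_univ ψ) (Finset.mem_univ ψ') hne.symm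
    rw [hsum] at h2
    have h3 := sq_pos_of_ne_zero hψ
    have h4 := sq_pos_of_ne_zero h0
    omega
  have hsq : ((2 * b ψ : ℤ) - c ψ) ^ 2 = 1 := by
    rwa [Finset.sum_eq_single ψ (fun x _ hx => by rw [hothers x hx]; rfl)
      (fun h => absurd (Finset.mem_univ _) h)] at hsum
  have hval : ∀ h, δ h = (((2 * b ψ : ℤ) - c ψ : ℤ) : ℂ) * (ψ : H → ℂ) h := by
    intro h
    rw [CfsgLib.Chars.eq_sum_classInner_mul hcl h, Finset.sum_eq_single ψ
      (fun x _ hx => by rw [hin, hothers x hx, Int.cast_zero, zero_mul])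
      (fun h => absurd (Finset.mem_univ _) h), hin]
  have hpos : ((2 * b ψ : ℤ) - c ψ) = 1 := by
    rcases sq_eq_one_iff.1 hsq with h | h
    · exact h
    exfalso
    obtain ⟨r, hr, hδ1⟩ := h1
    obtain ⟨d, hd, hd1⟩ := CfsgLib.Chars.exists_pos_natCast_map_one ψ.2
    have h2 := hval 1
    rw [h, hδ1, hd1] at h2
    have h3 : r = -(d : ℝ) := by
      apply Complex.ofReal_injective
      rw [h2]
      push_cast
      ring
    have : (0 : ℝ) < d := by exact_mod_cast hd
    linarith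
  refine ⟨ψ, fun h => by rw [hval h, hpos, Int.cast_one, one_mul], fun ψ' a ha => ?_⟩
  have hac : a = c ψ' := by exact_mod_cast ha.symm.trans (hc ψ')
  subst hac
  rcases eq_or_ne ψ' ψ with rfl | hne
  · refine iff_of_true ?_ rfl
    rw [Nat.odd_iff]
    omega
  · refine iff_of_false ?_ hne
    have := hothers ψ' hne
    rw [Nat.odd_iff]
    omega

variable {G : Type*} [Group G] [Fintype G] {K : Subgroup G} [K.Normal] [Fintype K]
  {n : Type*} [Fintype n] [DecidableEq n]
  {ρ : K →* Matrix n n ℂ} {L : Subgroup K} [L.Normal] [Fintype L]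
  (hS : Setup L ρ) (hG : IsInvar G ρ L) (s : Section hS)
  {m : Type*} [Fintype m] [DecidableEq m]
  (σ : G →* Matrix m m ℂ) (hσ : IsMultiple (σ.comp K.subtype) ρ)
  [Fintype (Lam L ρ)] (H : Subgroup G) [Fintype H]

omit [L.Normal] [Fintype L] in
theorem trace_opF_of_ne (μ : Lam L ρ) (hμ : μ ≠ 1) : (opF hS s σ hσ μ).trace = 0 := by
  obtain ⟨k, hk⟩ : ∃ k, μ.1 k ≠ 1 := by
    by_contra hcon
    push Not at hcon
    exact hμ (Subtype.ext (MonoidHom.ext hcon))
  have h := congrArg (fun X : Matrix m m ℂ => (X * σ ((k : G))⁻¹).trace)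
    (opF_rep hS s σ hσ μ k)
  simp only [Matrix.smul_mul, Matrix.trace_smul, smul_eq_mul] at h
  rw [Matrix.trace_mul_cycle, ← map_mul, inv_mul_cancel, map_one, Matrix.one_mul,
    Matrix.mul_assoc, ← map_mul, mul_inv_cancel, map_one, Matrix.mul_one] at h
  have h2 : ((μ.1 k : ℂ) - 1) * (opF hS s σ hσ μ).trace = 0 := by
    rw [sub_mul, one_mul, ← h, sub_self]
  exact (mul_eq_zero.1 h2).resolve_left
    (fun h3 => hk (Units.ext (by simpa [sub_eq_zero] using h3)))

include hG in
/-- Decomposition, norm and positivity give the odd constituent. -/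
theorem exists_parity (χ : IrrCharacter G) (hχ : ∀ g, (χ : G → ℂ) g = (σ g).trace)
    (hodd : Odd (Nat.card G)) (hHL : ∀ k : K, (k : G) ∈ H ↔ k ∈ L)
    (hKH : ∀ g : G, ∃ k ∈ K, ∃ h ∈ H, k * h = g) (heq : ∀ h ∈ H, cj hG h ∈ s.equiv) :
    ∃ ψ : IrrCharacter H, (∀ h : H, (ψ : H → ℂ) h = delta hS s σ hσ (h : G)) ∧
      ∀ ψ' : IrrCharacter H,
        (Odd (CfsgLib.Glauberman.mult H.subtype χ ψ') ↔ ψ' = ψ) := by
  classical
  have hsq := sqrt_sq (L := L) (ρ := ρ)
  have hN : (Nat.card (Lam L ρ) : ℂ) ≠ 0 := Nat.cast_ne_zero.2 Nat.card_pos.ne'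
  set r := ((Real.sqrt (Nat.card (Lam L ρ)) : ℝ) : ℂ) with hr
  have hr0 : r ≠ 0 := fun h => by rw [h, zero_mul] at hsq; exact hN hsq.symm
  set J : Matrix m m ℂ := r⁻¹ • ∑ u : Lam L ρ, opF hS s σ hσ u with hJ
  have hJJ : J * J = 1 := by
    rw [hJ, Matrix.smul_mul, Matrix.mul_smul, smul_smul, Finset.sum_mul_sum]
    simp only [opF_mul]
    have h1 : ∀ a : Lam L ρ, ∑ b : Lam L ρ, gam hS a b • opF hS s σ hσ (a * b) =
        ∑ c : Lam L ρ, gam hS a c • opF hS s σ hσ c := by
      intro a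
      refine Fintype.sum_equiv (Equiv.mulLeft a) _ _ fun b => ?_
      rw [Equiv.coe_mulLeft, gam_mul_right, gam_self, one_mul]
    simp only [h1]
    rw [Finset.sum_comm]
    simp only [← Finset.sum_smul, sum_gam, ite_smul, zero_smul, Finset.sum_ite_eq',
      Finset.mem_univ, if_true, opF_one, smul_smul, ← mul_inv]
    rw [hsq, inv_mul_cancel₀ hN, one_smul]
  have hJc : ∀ h : H, σ (h : G) * J = J * σ (h : G) := by
    intro h
    rw [hJ, Matrix.mul_smul, Matrix.smul_mul, Matrix.mul_sum, Matrix.sum_mul]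
    congr 1
    have hlin : ∀ u, σ (h : G) * opF hS s σ hσ u =
        opF hS s σ hσ (lamMap (cj hG (h : G)) u) * σ (h : G) :=
      fun u => opF_conj hS hG s σ hσ (heq _ h.2) u
    simp only [hlin]
    refine Fintype.sum_bijective (lamMap (cj hG (h : G))) ?_ _ _ fun u => rfl
    refine Function.bijective_iff_has_inverse.2
      ⟨lamMap (cj hG (h : G)⁻¹), fun u => ?_, fun u => ?_⟩
    · rw [← lamMap_mul, ← map_mul, inv_mul_cancel, map_one, lamMap_one]
    · rw [← lamMap_mul, ← map_mul, mul_inv_cancel, map_one, lamMap_one]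
  set P : Matrix m m ℂ := (2 : ℂ)⁻¹ • (1 + J) with hP
  have hPP : P * P = P := by
    rw [hP, Matrix.smul_mul, Matrix.mul_smul, Matrix.add_mul, Matrix.mul_add, Matrix.mul_add,
      Matrix.one_mul, Matrix.one_mul, Matrix.mul_one, hJJ, smul_smul]
    rw [show (1 : Matrix m m ℂ) + J + (J + 1) = (2 : ℂ) • (1 + J) by
      rw [two_smul]; abel, smul_smul]
    norm_num
  have hPc : ∀ h : H, (σ.comp H.subtype) h * P = P * (σ.comp H.subtype) h := by
    intro h
    show σ (h : G) * P = P * σ (h : G)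
    rw [hP, Matrix.mul_smul, Matrix.smul_mul, Matrix.mul_add, Matrix.add_mul, Matrix.mul_one,
      Matrix.one_mul, hJc]
  have hpc := isCharacter_compress (σ.comp H.subtype) P hPP hPc
  have hdel : ∀ g : G, delta hS s σ hσ g = (J * σ g).trace := by
    intro g
    rw [hJ, Matrix.smul_mul, Matrix.trace_smul, Matrix.sum_mul, Matrix.trace_sum, smul_eq_mul]
    rfl
  have hconj : ∀ g : G, (starRingEnd ℂ) (σ g).trace = (σ g⁻¹).trace := by
    intro g
    rw [← hχ, ← hχ]
    exact CfsgLib.Chars.conj_eq_map_inv (CfsgLib.Chars.isCharacter_coe χ) g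
  have hn := inner_delta hS hG s σ hσ σ hσ H hodd hHL hKH heq hconj
  have hfun : (fun g => (σ g).trace) = (χ : G → ℂ) := funext fun g => (hχ g).symm
  rw [hfun, CfsgLib.Chars.classInner_self] at hn
  have hpos : ∃ r : ℝ, 0 < r ∧ delta hS s σ hσ ((1 : H) : G) = (r : ℂ) := by
    refine ⟨(Real.sqrt (Nat.card (Lam L ρ)))⁻¹ * Fintype.card m, ?_, ?_⟩
    · have hm : 0 < Fintype.card m := by
        rw [Fintype.card_pos_iff]
        by_contra hem
        rw [not_nonempty_iff] at hem
        exact CfsgLib.Chars.map_one_ne_zero χ (by rw [hχ]; simp [Matrix.trace])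
      have hc : (0 : ℝ) < Nat.card (Lam L ρ) := Nat.cast_pos.2 Nat.card_pos
      positivity
    · show delta hS s σ hσ ((1 : H) : G) = _
      rw [hdel, Subgroup.coe_one, map_one, Matrix.mul_one, hJ, Matrix.trace_smul,
        Matrix.trace_sum, Finset.sum_eq_single (1 : Lam L ρ)
          (fun u _ hu => trace_opF_of_ne hS s σ hσ u hu)
          (fun h => absurd (Finset.mem_univ _) h),
        opF_one, Matrix.trace_one, smul_eq_mul, hr]
      push_cast
      rfl
  obtain ⟨ψ, hψ, hu⟩ := odd_constituent (δ := fun h : H => delta hS s σ hσ (h : G)) hpc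
    (f := fun h : H => (χ : G → ℂ) h)
    (CfsgLib.Chars.isCharacter_restrict (CfsgLib.Chars.isCharacter_coe χ) H)
    (fun h => by
      show delta hS s σ hσ (h : G) = 2 * (P * σ (h : G)).trace - (χ : G → ℂ) (h : G)
      rw [hdel, hχ]
      rw [show P * σ (h : G) = (2 : ℂ)⁻¹ • (σ (h : G) + J * σ (h : G)) by
        rw [hP, Matrix.smul_mul, Matrix.add_mul, Matrix.one_mul], Matrix.trace_smul,
        Matrix.trace_add, smul_eq_mul]
      ring)
    hn hpos
  refine ⟨ψ, hψ, fun ψ' => hu ψ' _ ?_⟩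
  exact CfsgLib.Glauberman.classInner_eq_mult H.subtype χ ψ'

end CfsgLib.OddSection
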