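import Cfsg.Agent.OddSection.Theta

/-!
# The correspondence over an invariant character of `L`
-/

set_option autoImplicit false

namespace CfsgLib.OddSection

open Cfsg CfsgLib.Glauberman

universe u v

/-- The standing hypotheses: `A` acts coprimely on `G`, of odd order, fixes `C` pointwise and
fixes only the trivial element of the abelian section `K / L`; `G = K C` and `H = L C`. -/
structure Data {G : Type u} [Group G] {A : Type v} [Group A] (act : A →* MulAut G)
    (K L C H : Subgroup G) : Prop where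
  odd : Odd (Nat.card G)
  cop : (Nat.card A).Coprime (Nat.card G)
  le : L ≤ K
  nK : K.Normal
  nL : L.Normal
  stabK : ∀ a, ∀ k ∈ K, act a k ∈ K
  stabL : ∀ a, ∀ l ∈ L, act a l ∈ L
  comm : ∀ a ∈ K, ∀ b ∈ K, a * b * a⁻¹ * b⁻¹ ∈ L
  cover : ∀ g : G, ∃ k ∈ K, ∃ c ∈ C, k * c = g
  fixC : ∀ a, ∀ c ∈ C, act a c = c
  fixK : ∀ k ∈ K, (∀ a, act a k * k⁻¹ ∈ L) → k ∈ L
  hH : H = L ⊔ C

variable {G : Type u} [Group G] [Fintype G] {A : Type v} [Group A] [Fintype A]
  {act : A →* MulAut G} {K L C H : Subgroup G}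

omit [Fintype G] [Fintype A] in
theorem Data.mem_H (hD : Data act K L C H) {h : G} (hh : h ∈ H) :
    ∃ l ∈ L, ∃ c ∈ C, l * c = h := by
  haveI := hD.nL
  rw [hD.hH] at hh
  exact Subgroup.mem_sup_of_normal_left.1 hh

omit [Fintype G] [Fintype A] in
theorem Data.LH (hD : Data act K L C H) : L ≤ H := hD.hH ▸ le_sup_left

omit [Fintype G] [Fintype A] in
theorem Data.CH (hD : Data act K L C H) : C ≤ H := hD.hH ▸ le_sup_right

omit [Fintype G] [Fintype A] in
theorem Data.inter (hD : Data act K L C H) {k : G} (hk : k ∈ K) : k ∈ H ↔ k ∈ L := by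
  refine ⟨fun h => ?_, fun h => hD.LH h⟩
  obtain ⟨l, hl, c, hc, rfl⟩ := hD.mem_H h
  have hcK : c ∈ K := (Subgroup.mul_mem_cancel_left _ (hD.le hl)).1 hk
  exact mul_mem hl (hD.fixK c hcK fun a => by rw [hD.fixC a c hc, mul_inv_cancel]; exact one_mem L)

/-- The restriction of an action to an invariant subgroup. -/
def autRes (act : A →* MulAut G) (K : Subgroup G) (hK : ∀ a, ∀ k ∈ K, act a k ∈ K) :
    A →* MulAut K where
  toFun a :=
    { toFun := fun k => ⟨act a k, hK a k k.2⟩
      invFun := fun k => ⟨act a⁻¹ k, hK a⁻¹ k k.2⟩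
      left_inv := fun k => Subtype.ext (by
        show act a⁻¹ (act a k) = k
        rw [← MulAut.mul_apply, ← map_mul, inv_mul_cancel, map_one]; rfl)
      right_inv := fun k => Subtype.ext (by
        show act a (act a⁻¹ k) = k
        rw [← MulAut.mul_apply, ← map_mul, mul_inv_cancel, map_one]; rfl)
      map_mul' := fun x y => Subtype.ext (map_mul (act a) _ _) }
  map_one' := MulEquiv.ext fun k => Subtype.ext (by
    show act 1 (k : G) = k
    rw [map_one]; rfl)
  map_mul' a b := MulEquiv.ext fun k => Subtype.ext (by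
    show act (a * b) (k : G) = act a (act b k)
    rw [map_mul]; rfl)

omit [Fintype G] [Fintype A] in
theorem Data.commute_conj (hD : Data act K L C H) (a : A) {c : G} (hc : c ∈ C) (g : G) :
    act a (c * g * c⁻¹) = c * act a g * c⁻¹ := by
  rw [map_mul, map_mul, map_inv, hD.fixC a c hc]

/-- The correspondence over an invariant character of `L`. -/
theorem core (hD : Data act K L C H) [Fintype H] [Fintype L] (φ : IrrCharacter L)
    (hφG : ConjFixd L (φ : L → ℂ)) (hφA : ∀ a, Fixd (act a) L (φ : L → ℂ)) :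
    (∀ χ : IrrCharacter G, (∀ a g, (χ : G → ℂ) (act a g) = (χ : G → ℂ) g) →
      mult L.subtype χ φ ≠ 0 → ∃ ψ : IrrCharacter H, (∀ a, Fixd (act a) H (ψ : H → ℂ)) ∧
        Odd (mult H.subtype χ ψ) ∧ ∀ ψ' : IrrCharacter H, Odd (mult H.subtype χ ψ') → ψ' = ψ) ∧
    (∀ χ χ' : IrrCharacter G, (∀ a g, (χ : G → ℂ) (act a g) = (χ : G → ℂ) g) →
      (∀ a g, (χ' : G → ℂ) (act a g) = (χ' : G → ℂ) g) →
      mult L.subtype χ φ ≠ 0 → mult L.subtype χ' φ ≠ 0 → ∀ ψ : IrrCharacter H,
      Odd (mult H.subtype χ ψ) → Odd (mult H.subtype χ' ψ) → χ = χ') ∧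
    (∀ ψ : IrrCharacter H, (∀ a, Fixd (act a) H (ψ : H → ℂ)) →
      mult (Subgroup.inclusion hD.LH) ψ φ ≠ 0 → ∃ χ : IrrCharacter G,
      (∀ a g, (χ : G → ℂ) (act a g) = (χ : G → ℂ) g) ∧ mult L.subtype χ φ ≠ 0 ∧
        Odd (mult H.subtype χ ψ)) := by
  classical
  haveI := hD.nK
  haveI := hD.nL
  haveI := Fintype.ofFinite K
  haveI := Fintype.ofFinite (L.subgroupOf K)
  let L' : Subgroup K := L.subgroupOf K
  let φ' : IrrCharacter L' := McKay.toSub hD.le φ
  let actK : A →* MulAut K := autRes act K hD.stabK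
  have hactK : ∀ a (k : K), ((actK a k : K) : G) = act a k := fun a k => rfl
  have hab : ∀ a b : K, a * b * a⁻¹ * b⁻¹ ∈ L' := fun a b => hD.comm a a.2 b b.2
  have hidx : L'.index ∣ Nat.card G :=
    (Subgroup.index_dvd_card L').trans (Subgroup.card_subgroup_dvd_card K)
  have hcop : (Nat.card A).Coprime L'.index := hD.cop.coprime_dvd_right hidx
  have hoddN : Odd L'.index := hD.odd.of_dvd_nat hidx
  have hfix : ∀ μ ∈ charOver L', (∀ a k, μ (actK a k) = μ k) → μ = 1 := by
    intro μ hμ hμa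
    letI : CommGroup (K ⧸ L') :=
      { (inferInstance : Group (K ⧸ L')) with
        mul_comm := by
          intro x y
          obtain ⟨a, rfl⟩ := QuotientGroup.mk_surjective x
          obtain ⟨b, rfl⟩ := QuotientGroup.mk_surjective y
          rw [← QuotientGroup.mk_mul, ← QuotientGroup.mk_mul, QuotientGroup.eq]
          have h : (a * b)⁻¹ * (b * a) = b⁻¹ * a⁻¹ * (b⁻¹)⁻¹ * (a⁻¹)⁻¹ := by group
          rw [h]
          exact hab _ _ }
    let μ' : K ⧸ L' →* ℂˣ := QuotientGroup.lift L' μ hμ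
    refine MonoidHom.ext fun k => ?_
    obtain ⟨x, hx⟩ := QuotientGroup.mk_surjective (∏ a : A, ((actK a k : K) : K ⧸ L'))
    have hxL : x ∈ L' := by
      refine hD.fixK x x.2 fun b => ?_
      let ψb : K ⧸ L' →* K ⧸ L' :=
        QuotientGroup.map L' L' (actK b).toMonoidHom fun l hl => hD.stabL b l hl
      have h1 : ψb (x : K ⧸ L') = (x : K ⧸ L') := by
        rw [hx, map_prod]
        refine Fintype.prod_equiv (Equiv.mulLeft b) _ _ fun a => ?_
        show ((actK b (actK a k) : K) : K ⧸ L') = ((actK (b * a) k : K) : K ⧸ L')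
        rw [map_mul]
        rfl
      have h2 : ((actK b x : K) : K ⧸ L') = (x : K ⧸ L') := h1
      have h3 : (actK b x) / x ∈ L' := QuotientGroup.eq_iff_div_mem.1 h2
      rw [div_eq_mul_inv] at h3
      exact h3
    have h4 : μ k ^ Nat.card A = 1 := by
      have h5 : μ' (∏ a : A, ((actK a k : K) : K ⧸ L')) = 1 := by
        rw [← hx]
        exact hμ x hxL
      rw [map_prod] at h5
      have h6 : ∀ a : A, μ' ((actK a k : K) : K ⧸ L') = μ k := fun a => hμa a k
      simpa only [h6, Finset.prod_const, Finset.card_univ, ← Nat.card_eq_fintype_card] using h5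
    have h7 : μ k ^ L'.index = 1 := by
      rw [← map_pow]
      exact hμ _ (L'.pow_index_mem k)
    have h8 := (pow_gcd_eq_one (a := μ k) (m := Nat.card A) (n := L'.index)).2 ⟨h4, h7⟩
    rw [hcop.gcd_eq_one, pow_one] at h8
    exact h8
  have hL'act : ∀ a, ∀ l ∈ L', actK a l ∈ L' := fun a l hl => hD.stabL a l hl
  obtain ⟨θ, ⟨hθφ, hθA⟩, hθu⟩ := exists_unique_fixed actK hab hcop hL'act φ'
    (fun a l l' h => hφA a _ _ (by
      have h1 := congrArg (Subtype.val) h
      rw [hactK] at h1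
      exact h1))
    hfix
  have hover' : ∀ θ' : IrrCharacter K,
      mult L'.subtype θ' φ' = mult (Subgroup.inclusion hD.le) θ' φ :=
    fun θ' => McKay.mult_toSub hD.le θ' φ
  -- conjugation
  have hconjover : ∀ (g : G) (θ' : IrrCharacter K), mult L'.subtype θ' φ' ≠ 0 →
      mult L'.subtype (CfsgLib.Chars.Induced.conjIrr g θ') φ' ≠ 0 := by
    intro g θ' h
    rw [hover'] at h ⊢
    have h1 := mult_irrPull (Subgroup.inclusion hD.le) (MulAut.conjNormal (g⁻¹) : MulAut K)
      (MulAut.conjNormal (g⁻¹) : MulAut L)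
      (fun c => Subtype.ext (by
        rw [Subgroup.coe_inclusion, MulAut.conjNormal_apply, MulAut.conjNormal_apply,
          Subgroup.coe_inclusion])) θ' φ
    rw [show irrPull (MulAut.conjNormal (g⁻¹) : MulAut L) φ = φ from Subtype.ext (funext fun l =>
      hφG g⁻¹ l _ (by rw [MulAut.conjNormal_apply]; rfl))] at h1
    rw [show CfsgLib.Chars.Induced.conjIrr g θ' =
      irrPull (MulAut.conjNormal (g⁻¹) : MulAut K) θ' from Subtype.ext (funext fun k => by
        rw [CfsgLib.Chars.Induced.conjIrr_coe, CfsgLib.Chars.Induced.conjFun_apply, irrPull_apply]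
        refine congrArg _ (Subtype.ext ?_)
        rw [MulAut.conjNormal_apply]
        show g⁻¹ * (k : G) * g = _
        rw [inv_inv]), h1]
    exact h
  have hconjC : ∀ {c : G}, c ∈ C → ∀ (θ' : IrrCharacter K) (a : A) (k : K),
      (∀ a k, (θ' : K → ℂ) (actK a k) = (θ' : K → ℂ) k) →
      (CfsgLib.Chars.Induced.conjIrr c θ' : K → ℂ) (actK a k) =
        (CfsgLib.Chars.Induced.conjIrr c θ' : K → ℂ) k := by
    intro c hc θ' a k h
    simp only [CfsgLib.Chars.Induced.conjIrr_coe, CfsgLib.Chars.Induced.conjFun_apply]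
    refine Eq.trans ?_ (h a (⟨c⁻¹ * (k : G) * c, _⟩ : K))
    refine congrArg _ (Subtype.ext ?_)
    show c⁻¹ * act a (k : G) * c = act a (c⁻¹ * (k : G) * c)
    rw [map_mul, map_mul, hD.fixC a c⁻¹ (inv_mem hc), hD.fixC a c hc]
  have hθG : ∀ g : G, CfsgLib.Chars.Induced.conjIrr g θ = θ := by
    intro g
    obtain ⟨k, hk, c, hc, rfl⟩ := hD.cover g
    have hcθ : CfsgLib.Chars.Induced.conjIrr c θ = θ :=
      hθu _ (hconjover c θ hθφ) fun a x => hconjC hc θ a x hθA
    rw [CfsgLib.Chars.Induced.conjIrr_mul, hcθ]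
    exact Subtype.ext (CfsgLib.Chars.Induced.conjFun_of_mem
      (CfsgLib.Chars.isClassFunction_coe θ) hk)
  have hθGfun : ∀ (g : G) (k k' : K), (k' : G) = g * k * g⁻¹ → (θ : K → ℂ) k' = (θ : K → ℂ) k := by
    intro g k k' h
    have h1 := congrArg (fun x : IrrCharacter K => (x : K → ℂ) k') (hθG g)
    simp only [CfsgLib.Chars.Induced.conjIrr_coe, CfsgLib.Chars.Induced.conjFun_apply] at h1
    rw [← h1]
    refine congrArg _ (Subtype.ext ?_)
    show g⁻¹ * (k' : G) * g = k
    rw [h]; group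
  -- representations
  obtain ⟨n, ρ, hρ⟩ := exists_matRep θ
  obtain ⟨f, σ0, hσ0⟩ := exists_matRep φ'
  have hirr : IsIrrRep ρ := isIrrRep_of_irr ρ θ hρ
  have hφ'inv : ∀ (x : K) (y y' : L'), L'.subtype y' = x * L'.subtype y * x⁻¹ →
      (φ' : L' → ℂ) y' = (φ' : L' → ℂ) y := fun x y y' h =>
    hφG (x : G) _ _ (congrArg Subtype.val h)
  have hθres : ∀ l : L', (θ : K → ℂ) l = (mult L'.subtype θ φ' : ℂ) * (φ' : L' → ℂ) l := fun l =>
    restrict_hom L'.subtype L'.subtype_injective (by rw [Subgroup.range_subtype]; infer_instance)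
      θ φ' hφ'inv hθφ l
  have hmul0 : IsMultiple (ρ.comp L'.subtype) σ0 :=
    ⟨(mult L'.subtype θ φ' : ℂ), fun l => by
      rw [← hσ0, MonoidHom.comp_apply, ← hρ]
      exact hθres l⟩
  have hS : Setup L' ρ := setup_mk hirr hab hoddN (isIrrRep_of_irr σ0 φ' hσ0) hmul0
  have hG : IsInvar G ρ L' := by
    intro g
    refine ⟨fun k => ?_, fun k => ?_⟩
    · show (k : G) ∈ L ↔ ((MulAut.conjNormal g k : K) : G) ∈ L
      rw [MulAut.conjNormal_apply]
      exact ⟨fun h => hD.nL.conj_mem _ h g, fun h => by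
        have h2 := hD.nL.conj_mem _ h g⁻¹
        simpa [mul_assoc] using h2⟩
    · rw [← hρ, ← hρ]
      exact hθGfun g k _ (MulAut.conjNormal_apply g k)
  have hAstab : ∀ a, actK a ∈ stabAut ρ L' := by
    intro a
    refine ⟨fun k => ⟨fun h => hL'act a k h, fun h => ?_⟩, fun k => ?_⟩
    · have h1 := hL'act a⁻¹ _ h
      rwa [← MulAut.mul_apply, ← map_mul, inv_mul_cancel, map_one, MulAut.one_apply] at h1
    · rw [← hρ, ← hρ]
      exact hθA a k
  let actS : A →* stabAut ρ L' := actK.codRestrict _ hAstab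
  haveI := Fintype.ofFinite (Lam L' ρ)
  obtain ⟨s, hs⟩ := exists_section hS actS hcop fun μ hμ => Subtype.ext (hfix μ.1 μ.2.1 fun a k => by
    have h1 := congrArg (fun w : Lam L' ρ => w.1 (actK a k)) (hμ a)
    simp only [lamMap, MonoidHom.coe_mk, OneHom.coe_mk, pullChar_apply] at h1
    have h2 : (actS a).1.symm (actK a k) = k := (actK a).symm_apply_apply k
    rw [h2] at h1
    exact h1.symm)
  have heq : ∀ h ∈ H, cj hG h ∈ s.equiv := by
    intro h hh
    suffices hle : H ≤ s.equiv.comap (cj hG) from hle hh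
    rw [hD.hH]
    refine sup_le (fun l hl => ?_) fun c hc => ?_
    · refine s.inner_mem _ (⟨l, hD.le hl⟩ : K) hl fun k => Subtype.ext ?_
      rw [cj_coe]
      rfl
    · refine hs _ fun a => Subtype.ext (MulEquiv.ext fun k => Subtype.ext ?_)
      show ((MulAut.conjNormal c (actK a k) : K) : G) = act a ((MulAut.conjNormal c k : K) : G)
      rw [MulAut.conjNormal_apply, MulAut.conjNormal_apply, hactK, hD.commute_conj a hc]
  have hKH : ∀ g : G, ∃ k ∈ K, ∃ h ∈ H, k * h = g := fun g => by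
    obtain ⟨k, hk, c, hc, h⟩ := hD.cover g
    exact ⟨k, hk, c, hD.CH hc, h⟩
  have hHL : ∀ k : K, (k : G) ∈ H ↔ k ∈ L' := fun k => hD.inter k.2
  -- the parity character of a character over `θ`
  have hpar : ∀ χ : IrrCharacter G, mult K.subtype χ θ ≠ 0 →
      ∃ (m : ℕ) (σ : G →* Matrix (Fin m) (Fin m) ℂ) (hσ : IsMultiple (σ.comp K.subtype) ρ),
        (∀ g, (χ : G → ℂ) g = (σ g).trace) ∧ ∃ ψ : IrrCharacter H,
          (∀ h : H, (ψ : H → ℂ) h = delta hS s σ hσ (h : G)) ∧
          ∀ ψ' : IrrCharacter H, (Odd (mult H.subtype χ ψ') ↔ ψ' = ψ) := by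
    intro χ hχ
    obtain ⟨m, σ, hσt⟩ := exists_matRep χ
    have hσ : IsMultiple (σ.comp K.subtype) ρ := ⟨(mult K.subtype χ θ : ℂ), fun k => by
      rw [MonoidHom.comp_apply, ← hσt, ← hρ]
      exact restrict_hom K.subtype K.subtype_injective
        (by rw [Subgroup.range_subtype]; exact hD.nK) χ θ
        (fun x y y' h => hθGfun x y y' h) hχ k⟩
    exact ⟨m, σ, hσ, hσt, exists_parity hS hG s σ hσ H χ hσt hD.odd hHL hKH heq⟩
  have hinj : ∀ χ χ' : IrrCharacter G, mult K.subtype χ θ ≠ 0 → mult K.subtype χ' θ ≠ 0 →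
      ∀ ψ : IrrCharacter H, Odd (mult H.subtype χ ψ) → Odd (mult H.subtype χ' ψ) → χ = χ' := by
    intro χ χ' hχ hχ' ψ h h'
    obtain ⟨m, σ, hσ, hσt, ψ1, hψ1, hu⟩ := hpar χ hχ
    obtain ⟨m', σ', hσ', hσt', ψ1', hψ1', hu'⟩ := hpar χ' hχ'
    obtain rfl := (hu ψ).1 h
    obtain rfl := (hu' ψ).1 h'
    by_contra hne
    have hn := inner_delta hS hG s σ hσ σ' hσ' H hD.odd hHL hKH heq (fun g => by
      rw [← hσt', ← hσt']
      exact CfsgLib.Chars.conj_eq_map_inv (CfsgLib.Chars.isCharacter_coe χ') g)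
    simp only [← hψ1, ← hψ1', ← hσt, ← hσt'] at hn
    rw [CfsgLib.Chars.classInner_of_ne hne] at hn
    exact one_ne_zero ((CfsgLib.Chars.classInner_self ψ).symm.trans hn)
  -- invariant characters over `φ` lie over `θ`
  have hoverθ : ∀ χ : IrrCharacter G, (∀ a g, (χ : G → ℂ) (act a g) = (χ : G → ℂ) g) →
      mult L.subtype χ φ ≠ 0 → mult K.subtype χ θ ≠ 0 := by
    intro χ hχA hχ
    obtain ⟨θ', h1, h2⟩ := McKay.exists_between K.subtype (Subgroup.inclusion hD.le) χ φ hχ
    suffices hA' : ∀ a k, (θ' : K → ℂ) (actK a k) = (θ' : K → ℂ) k by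
      rw [← hθu θ' (by rwa [hover']) hA']
      exact h1
    intro a k
    have hrot : ∀ b, mult K.subtype χ (irrPull (actK b) θ') ≠ 0 := by
      intro b
      have h3 := mult_irrPull K.subtype (act b) (actK b) (fun c => rfl) χ θ'
      rw [show irrPull (act b) χ = χ from Subtype.ext (funext fun g => hχA b g)] at h3
      rwa [h3]
    obtain ⟨g, hg⟩ := NormalSylow.mem_conjOrbit χ θ' (irrPull (actK a) θ') h1 (hrot a)
    obtain ⟨x, hx, c, hc, rfl⟩ := hD.cover g
    rw [CfsgLib.Chars.Induced.conjIrr_mul] at hg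
    rw [show CfsgLib.Chars.Induced.conjIrr x (CfsgLib.Chars.Induced.conjIrr c θ') =
      CfsgLib.Chars.Induced.conjIrr c θ' from Subtype.ext
        ((CfsgLib.Chars.Induced.conjIrr_coe x _).trans (CfsgLib.Chars.Induced.conjFun_of_mem
          (CfsgLib.Chars.isClassFunction_coe (CfsgLib.Chars.Induced.conjIrr c θ')) hx))] at hg
    have hpow : ∀ i : ℕ, CfsgLib.Chars.Induced.conjIrr (c ^ i) θ' =
        irrPull (actK (a ^ i)) θ' := by
      intro i
      induction i with
      | zero =>
        rw [pow_zero, pow_zero, CfsgLib.Chars.Induced.conjIrr_one]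
        refine Subtype.ext (funext fun y => ?_)
        rw [irrPull_apply, map_one]
        rfl
      | succ i ih =>
        rw [pow_succ', CfsgLib.Chars.Induced.conjIrr_mul, ih]
        refine Subtype.ext (funext fun y => ?_)
        rw [irrPull_apply, CfsgLib.Chars.Induced.conjIrr_coe, CfsgLib.Chars.Induced.conjFun_apply,
          irrPull_apply, pow_succ', map_mul, MulAut.mul_apply,
          ← irrPull_apply (actK a) θ', ← hg, CfsgLib.Chars.Induced.conjIrr_coe,
          CfsgLib.Chars.Induced.conjFun_apply]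
        refine congrArg _ (Subtype.ext ?_)
        show act (a ^ i) (c⁻¹ * (y : G) * c) = c⁻¹ * act (a ^ i) (y : G) * c
        rw [map_mul, map_mul, hD.fixC _ c⁻¹ (inv_mem hc), hD.fixC _ c hc]
    let T : Subgroup G :=
      { carrier := {g | CfsgLib.Chars.Induced.conjIrr g θ' = θ'}
        one_mem' := CfsgLib.Chars.Induced.conjIrr_one θ'
        mul_mem' := fun {x y} (hx : CfsgLib.Chars.Induced.conjIrr x θ' = θ')
            (hy : CfsgLib.Chars.Induced.conjIrr y θ' = θ') => by
          show CfsgLib.Chars.Induced.conjIrr (x * y) θ' = θ'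
          rw [CfsgLib.Chars.Induced.conjIrr_mul, hy, hx]
        inv_mem' := fun {x} (hx : CfsgLib.Chars.Induced.conjIrr x θ' = θ') => by
          show CfsgLib.Chars.Induced.conjIrr x⁻¹ θ' = θ'
          conv_lhs => rw [← hx, ← CfsgLib.Chars.Induced.conjIrr_mul, inv_mul_cancel,
            CfsgLib.Chars.Induced.conjIrr_one] }
    have hT1 : c ^ Nat.card A ∈ T := by
      show CfsgLib.Chars.Induced.conjIrr (c ^ Nat.card A) θ' = θ'
      rw [hpow, pow_card_eq_one', map_one]
      exact Subtype.ext (funext fun y => rfl)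
    obtain ⟨j, hj⟩ := exists_pow_eq_self_of_coprime
      (n := Nat.card A) (x := c) (hD.cop.coprime_dvd_right (orderOf_dvd_natCard c))
    have hcT : CfsgLib.Chars.Induced.conjIrr c θ' = θ' := by
      have := pow_mem hT1 j
      rwa [hj] at this
    rw [hcT] at hg
    exact congrArg (fun w : IrrCharacter K => (w : K → ℂ) k) hg.symm
  have hoverφ : ∀ χ : IrrCharacter G, mult K.subtype χ θ ≠ 0 → mult L.subtype χ φ ≠ 0 := fun χ h =>
    McKay.over_trans K.subtype (Subgroup.inclusion hD.le) χ θ φ h (by rwa [← hover'])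
  -- automorphisms of `H`
  have hHA : ∀ a, ∀ h ∈ H, act a h ∈ H := by
    intro a h hh
    obtain ⟨l, hl, c, hc, rfl⟩ := hD.mem_H hh
    rw [map_mul, hD.fixC a c hc]
    exact mul_mem (hD.LH (hD.stabL a l hl)) (hD.CH hc)
  have hrotH : ∀ a (χ : IrrCharacter G) (ψ : IrrCharacter H),
      mult H.subtype (irrPull (act a) χ) (irrPull (autRes act H hHA a) ψ) = mult H.subtype χ ψ :=
    fun a χ ψ => mult_irrPull H.subtype (act a) (autRes act H hHA a) (fun c => rfl) χ ψ
  refine ⟨fun χ hχA hχ => ?_, fun χ χ' hA hA' h h' => hinj χ χ' (hoverθ χ hA h) (hoverθ χ' hA' h'),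
    fun ψ hψA hψ => ?_⟩
  · obtain ⟨m, σ, hσ, hσt, ψ, hψ, hu⟩ := hpar χ (hoverθ χ hχA hχ)
    refine ⟨ψ, fun a x x' hxx' => ?_, (hu ψ).2 rfl, fun ψ' h => (hu ψ').1 h⟩
    have h1 := hrotH a χ ψ
    rw [show irrPull (act a) χ = χ from Subtype.ext (funext fun g => hχA a g)] at h1
    have h2 := (hu (irrPull (autRes act H hHA a) ψ)).1 (by rw [h1]; exact (hu ψ).2 rfl)
    have h3 := congrArg (fun w : IrrCharacter H => (w : H → ℂ) x) h2
    rw [← h3]
    exact congrArg _ (Subtype.ext hxx')
  · -- surjectivity by a parity count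
    haveI := Fintype.ofFinite (L.subgroupOf H)
    set d := mult (Subgroup.inclusion hD.LH) ψ φ with hd
    set e := mult (Subgroup.inclusion hD.le) θ φ with he
    have he0 : e ≠ 0 := by rw [he, ← hover']; exact hθφ
    have hψres : ∀ l : L, (ψ : H → ℂ) (Subgroup.inclusion hD.LH l) = (d : ℂ) * (φ : L → ℂ) l :=
      restrict_hom (Subgroup.inclusion hD.LH) (Subgroup.inclusion_injective _)
        (by rw [Subgroup.inclusion_range]; infer_instance) ψ φ
        (fun x y y' h => hφG (x : G) y y' (congrArg Subtype.val h)) hψ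
    have hθres' : ∀ l : L, (θ : K → ℂ) (Subgroup.inclusion hD.le l) = (e : ℂ) * (φ : L → ℂ) l :=
      restrict_hom (Subgroup.inclusion hD.le) (Subgroup.inclusion_injective _)
        (by rw [Subgroup.inclusion_range]; infer_instance) θ φ
        (fun x y y' h => hφG (x : G) y y' (congrArg Subtype.val h))
        (by rw [← hover']; exact hθφ)
    have hodd1 : ∀ {X : Type u} [Group X] [Fintype X] (x : IrrCharacter X),
        Odd (Nat.card X) → Odd (Cfsg.charDegree (x : X → ℂ)) := fun x h =>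
      h.of_dvd_nat (CfsgLib.Chars.charDegree_dvd_card x)
    have hdd : Odd d := by
      have h1 := hψres 1
      rw [map_one, ← CfsgLib.Chars.coe_charDegree, ← CfsgLib.Chars.coe_charDegree,
        ← Nat.cast_mul, Nat.cast_inj] at h1
      have h2 := hodd1 ψ (hD.odd.of_dvd_nat (Subgroup.card_subgroup_dvd_card H))
      rw [h1] at h2
      exact (Nat.odd_mul.1 h2).1
    have hee : Odd e := by
      have h1 := hθres' 1
      rw [map_one, ← CfsgLib.Chars.coe_charDegree, ← CfsgLib.Chars.coe_charDegree,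
        ← Nat.cast_mul, Nat.cast_inj] at h1
      have h2 := hodd1 θ (hD.odd.of_dvd_nat (Subgroup.card_subgroup_dvd_card K))
      rw [h1] at h2
      exact (Nat.odd_mul.1 h2).1
    let Θ : G → ℂ := indFun K (θ : K → ℂ)
    have hΘin : ∀ k : K, Θ (k : G) =
        (Nat.card K : ℂ)⁻¹ * (Nat.card G : ℂ) * (θ : K → ℂ) k := by
      intro k
      show indFun K (θ : K → ℂ) (k : G) = _
      rw [CfsgLib.Chars.Induced.indFun_normal_mem, Finset.sum_congr rfl (fun x _ => by
        rw [← CfsgLib.Chars.Induced.conjIrr_coe, hθG x]), Finset.sum_const, Finset.card_univ,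
        nsmul_eq_mul, ← Nat.card_eq_fintype_card, mul_assoc]
    have hsum : ((∑ χ : IrrCharacter G,
        mult H.subtype χ ψ * mult K.subtype χ θ : ℕ) : ℂ) = ((d * e : ℕ) : ℂ) := by
      have hΘc := CfsgLib.Chars.Induced.indFun_isClassFunction K (θ : K → ℂ)
      have h1 := CfsgLib.Chars.classInner_eq_sum
        (CfsgLib.Chars.Induced.indFun_isClassFunction H (ψ : H → ℂ)) Θ
      rw [CfsgLib.Chars.Induced.classInner_indFun H _ hΘc] at h1
      have h2 : ∀ χ : IrrCharacter G, classInner (indFun H (ψ : H → ℂ)) (χ : G → ℂ) *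
          (starRingEnd ℂ) (classInner Θ (χ : G → ℂ)) =
          ((mult H.subtype χ ψ * mult K.subtype χ θ : ℕ) : ℂ) := by
        intro χ
        rw [CfsgLib.Chars.Induced.classInner_indFun H _ (CfsgLib.Chars.isClassFunction_coe χ),
          CfsgLib.Chars.Induced.classInner_indFun K _ (CfsgLib.Chars.isClassFunction_coe χ),
          CfsgLib.Chars.Induced.classInner_comm_conj,
          CfsgLib.Chars.Induced.classInner_comm_conj (θ : K → ℂ), Complex.conj_conj]
        rw [show classInner (fun h : H => (χ : G → ℂ) h) (ψ : H → ℂ) = (mult H.subtype χ ψ : ℂ)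
            from classInner_eq_mult H.subtype χ ψ,
          show classInner (fun h : K => (χ : G → ℂ) h) (θ : K → ℂ) = (mult K.subtype χ θ : ℂ)
            from classInner_eq_mult K.subtype χ θ, map_natCast, Nat.cast_mul]
      simp only [h2] at h1
      rw [Nat.cast_sum, ← h1]
      simp only [classInner]
      have hvanish : ∀ x : H, (x : G) ∉ L →
          (ψ : H → ℂ) x * (starRingEnd ℂ) (Θ (x : G)) = 0 := by
        intro x hx
        rw [show Θ (x : G) = 0 from CfsgLib.Chars.Induced.indFun_normal_notMem _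
          (fun hk => hx ((hD.inter hk).1 x.2)), map_zero, mul_zero]
      rw [← Finset.sum_subset (Finset.subset_univ (Finset.univ.filter fun x : H => (x : G) ∈ L))
        (fun x _ hx => hvanish x fun h => hx (Finset.mem_filter.2 ⟨Finset.mem_univ _, h⟩))]
      have hbij : ∑ x ∈ (Finset.univ.filter fun x : H => (x : G) ∈ L),
          (ψ : H → ℂ) x * (starRingEnd ℂ) (Θ (x : G)) =
          ∑ l : L, ((Nat.card K : ℂ)⁻¹ * (Nat.card G : ℂ) * d * e) *
            ((φ : L → ℂ) l * (starRingEnd ℂ) ((φ : L → ℂ) l)) := by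
        refine Finset.sum_bij'
          (fun x hx => (⟨(x : G), (Finset.mem_filter.1 hx).2⟩ : L))
          (fun l _ => Subgroup.inclusion hD.LH l)
          (fun _ _ => Finset.mem_univ _)
          (fun l _ => Finset.mem_filter.2 ⟨Finset.mem_univ _, l.2⟩)
          (fun _ _ => rfl) (fun _ _ => rfl) (fun x hx => ?_)
        have hxL := (Finset.mem_filter.1 hx).2
        have h5 := hψres ⟨(x : G), hxL⟩
        rw [show Subgroup.inclusion hD.LH ⟨(x : G), hxL⟩ = x from rfl] at h5
        rw [h5, show Θ (x : G) = _ from hΘin (Subgroup.inclusion hD.le ⟨(x : G), hxL⟩), hθres']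
        simp only [map_mul, map_inv₀, map_natCast]
        ring
      rw [hbij]
      rw [← Finset.mul_sum]
      have h3 := CfsgLib.Chars.classInner_self φ
      rw [classInner, inv_mul_eq_iff_eq_mul₀ (Nat.cast_ne_zero.2 Nat.card_pos.ne'), mul_one] at h3
      rw [h3, Nat.cast_mul]
      have hcard : Nat.card L * Nat.card G = Nat.card H * Nat.card K := by
        let q : H →* G ⧸ K := (QuotientGroup.mk' K).comp H.subtype
        have hq : Function.Surjective q := by
          intro y
          obtain ⟨g, rfl⟩ := QuotientGroup.mk_surjective y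
          obtain ⟨k, hk, h, hh, rfl⟩ := hKH g
          refine ⟨⟨h, hh⟩, ?_⟩
          show ((h : G) : G ⧸ K) = _
          rw [QuotientGroup.mk_mul, (QuotientGroup.eq_one_iff k).2 hk, one_mul]
        have h4 : Nat.card q.ker = Nat.card L := Nat.card_congr
          { toFun := fun x => ⟨((x : H) : G),
              (hD.inter ((QuotientGroup.eq_one_iff _).1 x.2)).1 x.1.2⟩
            invFun := fun l => ⟨Subgroup.inclusion hD.LH l,
              (QuotientGroup.eq_one_iff _).2 (hD.le l.2)⟩
            left_inv := fun x => rfl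
            right_inv := fun l => rfl }
        rw [← q.ker.card_mul_index, Subgroup.index_ker, MonoidHom.range_eq_top.2 hq,
          Subgroup.card_top, h4, ← K.card_mul_index, Subgroup.index_eq_card]
        ring
      have hcardC : (Nat.card L : ℂ) * Nat.card G = Nat.card H * Nat.card K := by
        exact_mod_cast hcard
      have hHne : (Nat.card H : ℂ) ≠ 0 := Nat.cast_ne_zero.2 Nat.card_pos.ne'
      have hKne : (Nat.card K : ℂ) ≠ 0 := Nat.cast_ne_zero.2 Nat.card_pos.ne'
      field_simp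
      linear_combination hcardC
    obtain ⟨χ, -, hχ⟩ : ∃ χ ∈ Finset.univ, Odd (mult H.subtype χ ψ * mult K.subtype χ θ) := by
      by_contra hcon
      push Not at hcon
      have h1 : Odd (d * e) := hdd.mul hee
      rw [← Nat.cast_inj.1 hsum] at h1
      exact Nat.not_even_iff_odd.2 h1 (Finset.even_sum _ fun χ hχ => Nat.not_odd_iff_even.1 (hcon χ hχ))
    have hχθ : mult K.subtype χ θ ≠ 0 := fun h => by
      rw [h, mul_zero] at hχ
      exact Nat.not_odd_zero hχ
    refine ⟨χ, fun a g => ?_, hoverφ χ hχθ, (Nat.odd_mul.1 hχ).1⟩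
    have hpull : mult K.subtype (irrPull (act a) χ) θ ≠ 0 := by
      have h3 := mult_irrPull K.subtype (act a) (actK a) (fun c => rfl) χ θ
      rw [show irrPull (actK a) θ = θ from Subtype.ext (funext fun k => hθA a k)] at h3
      rwa [h3]
    have hψpull : irrPull (autRes act H hHA a) ψ = ψ :=
      Subtype.ext (funext fun x => hψA a x _ rfl)
    have h4 := hrotH a χ ψ
    rw [hψpull] at h4
    have h5 := hinj _ χ hpull hχθ ψ (by rw [h4]; exact (Nat.odd_mul.1 hχ).1) (Nat.odd_mul.1 hχ).1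
    exact congrArg (fun w : IrrCharacter G => (w : G → ℂ) g) h5

end CfsgLib.OddSection
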