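import Cfsg.Agent.OddSection.Weyl

/-!
# Gauss sums and trace functions of the operators of a section

For an automorphism in the conjugation action fixing the section, the sum over the section of the
traces `tr (F u * σ h)` is a multiple of `χ h` whose factor is a Gauss sum depending only on `h`.
-/

set_option autoImplicit false

namespace CfsgLib.OddSection

open Matrix

variable {G : Type*} [Group G] [Fintype G] {K : Subgroup G} [K.Normal] [Fintype K]
  {n : Type*} [Fintype n] [DecidableEq n]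
  {ρ : K →* Matrix n n ℂ} {L : Subgroup K}

/-- `ρ` is `G`-invariant and `L` is normal in `G`. -/
def IsInvar (G : Type*) [Group G] {K : Subgroup G} [K.Normal] [Fintype K] {n : Type*} [Fintype n]
    [DecidableEq n] (ρ : K →* Matrix n n ℂ) (L : Subgroup K) : Prop :=
  ∀ g : G, MulAut.conjNormal g ∈ stabAut ρ L

/-- Conjugation as a homomorphism into the stabiliser. -/
noncomputable def cj (hG : IsInvar G ρ L) : G →* stabAut ρ L :=
  (MulAut.conjNormal (H := K)).codRestrict _ hG

theorem cj_coe (hG : IsInvar G ρ L) (g : G) (k : K) :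
    (((cj hG g).1 k : K) : G) = g * k * g⁻¹ := by
  show ((MulAut.conjNormal g k : K) : G) = _
  exact MulAut.conjNormal_apply g k

variable (hS : Setup L ρ)

theorem gam_one_right (μ : Lam L ρ) : gam hS μ 1 = 1 := by
  have h3 := gam_swap hS 1 μ
  rwa [gam, beta_one_left, one_pow, one_mul] at h3

theorem gam_inv_right (μ ν : Lam L ρ) : gam hS μ ν⁻¹ = gam hS ν μ := by
  have h1 : gam hS μ (ν * ν⁻¹) = gam hS μ ν * gam hS μ ν⁻¹ := gam_mul_right hS _ _ _
  rw [mul_inv_cancel, gam_one_right] at h1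
  have h2 := gam_swap hS μ ν
  have h0 : gam hS μ ν ≠ 0 := fun h => by rw [h, zero_mul] at h2; exact zero_ne_one h2
  exact mul_left_cancel₀ h0 (h1.symm.trans h2.symm)

/-- The pairing as a homomorphism into the dual. -/
noncomputable def gamHom : Lam L ρ →* (Lam L ρ →* ℂˣ) where
  toFun μ :=
    { toFun := fun ν => Units.mk0 (gam hS μ ν) fun h => by
        have h2 := gam_swap hS μ ν
        rw [h, zero_mul] at h2
        exact zero_ne_one h2
      map_one' := Units.ext (gam_one_right hS μ)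
      map_mul' := fun a b => Units.ext (gam_mul_right hS μ a b) }
  map_one' := MonoidHom.ext fun ν => Units.ext (by
    show gam hS 1 ν = 1
    rw [gam, beta_one_left, one_pow])
  map_mul' a b := MonoidHom.ext fun ν => Units.ext (gam_mul_left hS a b ν)

theorem gamHom_apply (μ ν : Lam L ρ) : ((gamHom hS μ ν : ℂˣ) : ℂ) = gam hS μ ν := rfl

theorem gamHom_injective : Function.Injective (gamHom hS) := by
  refine (injective_iff_map_eq_one _).2 fun μ h => gam_nondeg hS μ fun ν => ?_
  rw [← gamHom_apply hS, h]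
  rfl

theorem gamHom_surjective : Function.Surjective (gamHom hS) := by
  have hc : Nat.card (Lam L ρ →* ℂˣ) = Nat.card (Lam L ρ) :=
    CommGroup.card_monoidHom_of_hasEnoughRootsOfUnity (Lam L ρ) ℂ
  exact ((gamHom_injective hS).bijective_of_nat_card_le hc.le).2

theorem sum_gam [Fintype (Lam L ρ)] [DecidableEq (Lam L ρ)] (μ : Lam L ρ) :
    ∑ ν : Lam L ρ, gam hS ν μ = if μ = 1 then (Nat.card (Lam L ρ) : ℂ) else 0 := by
  split_ifs with h
  · subst h
    simp [gam_one_right, Nat.card_eq_fintype_card]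
  · obtain ⟨κ, hκ⟩ : ∃ κ, gam hS κ μ ≠ 1 := by
      by_contra hcon
      push Not at hcon
      refine h (gam_nondeg hS μ fun ν => ?_)
      have h2 := gam_swap hS μ ν
      rwa [hcon ν, mul_one] at h2
    have h1 : gam hS κ μ * ∑ ν : Lam L ρ, gam hS ν μ = ∑ ν : Lam L ρ, gam hS ν μ := by
      rw [Finset.mul_sum]
      refine Fintype.sum_equiv (Equiv.mulLeft κ) _ _ fun ν => ?_
      rw [Equiv.coe_mulLeft, gam_mul_left]
    have h2 : (gam hS κ μ - 1) * ∑ ν : Lam L ρ, gam hS ν μ = 0 := by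
      rw [sub_mul, h1, one_mul, sub_self]
    exact (mul_eq_zero.1 h2).resolve_left (sub_ne_zero.2 hκ)

variable (hG : IsInvar G ρ L) (s : Section hS) {m : Type*} [Fintype m] [DecidableEq m]
  (σ : G →* Matrix m m ℂ) (hσ : IsMultiple (σ.comp K.subtype) ρ)

/-- The operators on a representation of `G`. -/
noncomputable def opF (μ : Lam L ρ) : Matrix m m ℂ := phi hS.irr hσ (s.sec μ)

theorem opF_one : opF hS s σ hσ 1 = 1 := by rw [opF, s.sec_one, map_one]

theorem opF_mul (μ ν : Lam L ρ) :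
    opF hS s σ hσ μ * opF hS s σ hσ ν = gam hS μ ν • opF hS s σ hσ (μ * ν) := by
  rw [opF, opF, opF, ← map_mul, s.sec_mul, map_smul]

theorem opF_mul_inv (μ : Lam L ρ) : opF hS s σ hσ μ * opF hS s σ hσ μ⁻¹ = 1 := by
  rw [opF_mul, gam_inv_right, gam_self, one_smul, mul_inv_cancel, opF_one]

theorem opF_inv_mul (μ : Lam L ρ) : opF hS s σ hσ μ⁻¹ * opF hS s σ hσ μ = 1 := by
  have h := opF_mul_inv hS s σ hσ μ⁻¹
  rwa [inv_inv] at h

theorem opF_rep (μ : Lam L ρ) (k : K) :
    σ k * opF hS s σ hσ μ = (μ.1 k : ℂ) • (opF hS s σ hσ μ * σ k) := by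
  have h := congrArg (phi hS.irr hσ) (s.sec_eig μ k)
  rwa [map_mul, map_smul, map_mul, phi_rep] at h

/-- Conjugation by an element of `G`. -/
theorem phi_conj (g : G) (X : Matrix n n ℂ) :
    σ g * phi hS.irr hσ X = phi hS.irr hσ (alpha hS.irr (cj hG g) X) * σ g := by
  refine LinearMap.congr_fun (phiLin_ext hS.irr
    (f := (LinearMap.mulLeft ℂ (σ g)).comp (phi hS.irr hσ).toLinearMap)
    (g := (LinearMap.mulRight ℂ (σ g)).comp
      ((phi hS.irr hσ).toLinearMap.comp (alpha hS.irr (cj hG g)).toLinearMap)) fun k => ?_) X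
  simp only [LinearMap.comp_apply, LinearMap.mulLeft_apply, LinearMap.mulRight_apply,
    AlgHom.toLinearMap_apply, alpha_rep, phi_rep]
  show σ g * σ (k : G) = σ (((cj hG g).1 k : K) : G) * σ g
  rw [← map_mul, ← map_mul, cj_coe, inv_mul_cancel_right]

theorem opF_conj {g : G} (hg : cj hG g ∈ s.equiv) (μ : Lam L ρ) :
    σ g * opF hS s σ hσ μ = opF hS s σ hσ (lamMap (cj hG g) μ) * σ g := by
  rw [opF, phi_conj hS hG σ hσ, hg μ]
  rfl

theorem trace_opF_conj (w : Lam L ρ) (X : Matrix m m ℂ) :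
    (opF hS s σ hσ w * X * opF hS s σ hσ w⁻¹).trace = X.trace := by
  rw [Matrix.trace_mul_cycle, opF_inv_mul, Matrix.one_mul]

/-- The trace function. -/
noncomputable def tr (g : G) (u : Lam L ρ) : ℂ := (opF hS s σ hσ u * σ g).trace

theorem tr_one (g : G) : tr hS s σ hσ g 1 = (σ g).trace := by
  rw [tr, opF_one, Matrix.one_mul]

theorem tr_shift {g : G} (hg : cj hG g ∈ s.equiv) (w u : Lam L ρ) :
    tr hS s σ hσ g u = gam hS w u * gam hS (w * u) (lamMap (cj hG g) w)⁻¹ *
      tr hS s σ hσ g (w * u * (lamMap (cj hG g) w)⁻¹) := by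
  conv_lhs => rw [tr, ← trace_opF_conj hS s σ hσ w]
  rw [← Matrix.mul_assoc, opF_mul, Matrix.mul_assoc, opF_conj hS hG s σ hσ hg, map_inv,
    ← Matrix.mul_assoc, Matrix.smul_mul, opF_mul, smul_smul, Matrix.smul_mul, Matrix.trace_smul,
    smul_eq_mul]
  rfl

theorem tr_div {g : G} (hg : cj hG g ∈ s.equiv) (w : Lam L ρ) :
    tr hS s σ hσ g (w * (lamMap (cj hG g) w)⁻¹) =
      gam hS w (lamMap (cj hG g) w) * (σ g).trace := by
  have h := tr_shift hS hG s σ hσ hg w 1
  rw [tr_one, gam_one_right, one_mul, mul_one, gam_inv_right] at h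
  rw [h, ← mul_assoc, gam_swap, one_mul]

/-- The displacement `w ↦ w / g w`. -/
noncomputable def disp (g : G) : Lam L ρ →* Lam L ρ where
  toFun w := w * (lamMap (cj hG g) w)⁻¹
  map_one' := by rw [map_one, inv_one, mul_one]
  map_mul' a b := by rw [map_mul, mul_inv, mul_mul_mul_comm]

theorem mem_ker_disp (g : G) (w : Lam L ρ) :
    w ∈ (disp hG g).ker ↔ lamMap (cj hG g) w = w := by
  rw [MonoidHom.mem_ker]
  show w * (lamMap (cj hG g) w)⁻¹ = 1 ↔ _
  rw [mul_inv_eq_one]
  exact eq_comm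

theorem tr_eq_zero {g : G} (hg : cj hG g ∈ s.equiv) {u : Lam L ρ}
    (hu : u ∉ (disp hG g).range) : tr hS s σ hσ g u = 0 := by
  obtain ⟨ξ, hξ⟩ := CommGroup.exists_apply_ne_one_of_hasEnoughRootsOfUnity
    (Lam L ρ ⧸ (disp hG g).range) ℂ (a := QuotientGroup.mk u)
    (fun h => hu ((QuotientGroup.eq_one_iff u).1 h))
  obtain ⟨w, hw⟩ := gamHom_surjective hS (ξ.comp (QuotientGroup.mk' _))
  have hwx : ∀ x, gam hS w (x * (lamMap (cj hG g) x)⁻¹) = 1 := by
    intro x
    rw [← gamHom_apply hS, hw, MonoidHom.comp_apply, QuotientGroup.mk'_apply,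
      (QuotientGroup.eq_one_iff (x * (lamMap (cj hG g) x)⁻¹)).2 (MonoidHom.mem_range.2 ⟨x, rfl⟩),
      map_one, Units.val_one]
  have hfix : lamMap (cj hG g) w = w := by
    refine gamHom_injective hS (MonoidHom.ext fun y => Units.ext ?_)
    rw [gamHom_apply, gamHom_apply]
    have hy : lamMap (cj hG g) (lamMap (cj hG g⁻¹) y) = y := by
      rw [← lamMap_mul, ← map_mul, mul_inv_cancel, map_one, lamMap_one]
    have h1 := hwx (lamMap (cj hG g⁻¹) y)
    rw [hy, gam_mul_right, gam_inv_right] at h1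
    have h2 := gam_swap hS w y
    have h3 : gam hS w (lamMap (cj hG g⁻¹) y) = gam hS w y := by
      calc gam hS w (lamMap (cj hG g⁻¹) y)
          = gam hS w (lamMap (cj hG g⁻¹) y) * (gam hS w y * gam hS y w) := by rw [h2, mul_one]
        _ = gam hS w (lamMap (cj hG g⁻¹) y) * gam hS y w * gam hS w y := by ring
        _ = gam hS w y := by rw [h1, one_mul]
    rw [← h3]
    conv_lhs => rw [← hy]
    exact gam_lamMap hS _ _ _
  have h := tr_shift hS hG s σ hσ hg w u
  rw [hfix, mul_comm w u, mul_inv_cancel_right, gam_inv_right, gam_mul_right, gam_self,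
    mul_one] at h
  have hne : gam hS w u * gam hS w u ≠ 1 := by
    intro h1
    have hne1 : gam hS w u ≠ 1 := by
      intro h2
      rw [← gamHom_apply hS, hw] at h2
      exact hξ (Units.ext h2)
    refine hne1 ?_
    obtain ⟨t, ht⟩ := hS.odd
    have h3 := gam_pow_index hS w u
    rwa [ht, pow_succ, pow_mul, sq, h1, one_pow, one_mul] at h3
  have h2 : (gam hS w u * gam hS w u - 1) * tr hS s σ hσ g u = 0 := by
    rw [sub_mul, one_mul, ← h, sub_self]
  exact (mul_eq_zero.1 h2).resolve_left (sub_ne_zero.2 hne)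

variable [Fintype (Lam L ρ)]

/-- The Gauss sum. -/
noncomputable def gauss (g : G) : ℂ := ∑ w : Lam L ρ, gam hS w (lamMap (cj hG g) w)

theorem card_ker_mul_sum_tr {g : G} (hg : cj hG g ∈ s.equiv) :
    (Nat.card (disp hG g).ker : ℂ) * ∑ u : Lam L ρ, tr hS s σ hσ g u =
      gauss hS hG g * (σ g).trace := by
  classical
  rw [gauss, Finset.sum_mul]
  simp only [← tr_div hS hG s σ hσ hg]
  rw [← Finset.sum_fiberwise (s := Finset.univ) (g := disp hG g)
    (f := fun w => tr hS s σ hσ g (w * (lamMap (cj hG g) w)⁻¹)), Finset.mul_sum]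
  refine Finset.sum_congr rfl fun u _ => ?_
  have hval : ∀ w ∈ Finset.univ.filter (fun w => disp hG g w = u),
      tr hS s σ hσ g (w * (lamMap (cj hG g) w)⁻¹) = tr hS s σ hσ g u := by
    intro w hw
    rw [← (Finset.mem_filter.1 hw).2]
    rfl
  rw [Finset.sum_congr rfl hval, Finset.sum_const, nsmul_eq_mul]
  by_cases hu : u ∈ (disp hG g).range
  · obtain ⟨w0, hw0⟩ := hu
    congr 2
    rw [Nat.card_eq_fintype_card, ← Finset.card_univ]
    symm
    refine Finset.card_bij (fun w hw => (⟨w0⁻¹ * w, ?_⟩ : (disp hG g).ker)) ?_ ?_ ?_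
    · rw [MonoidHom.mem_ker, map_mul, map_inv, hw0, (Finset.mem_filter.1 hw).2, inv_mul_cancel]
    · exact fun w _ => Finset.mem_univ _
    · intro a _ b _ hab
      simpa using hab
    · rintro ⟨z, hz⟩ -
      refine ⟨w0 * z, Finset.mem_filter.2 ⟨Finset.mem_univ _, ?_⟩, Subtype.ext (by simp)⟩
      rw [map_mul, hw0, MonoidHom.mem_ker.1 hz, mul_one]
  · rw [tr_eq_zero hS hG s σ hσ hg hu, mul_zero, mul_zero]

include hS in
theorem fixed_of_sq {g : G} (hodd : Odd (orderOf g)) (x : Lam L ρ)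
    (h : lamMap (cj hG g) (lamMap (cj hG g) x) = x) : lamMap (cj hG g) x = x := by
  obtain ⟨t, ht⟩ := hodd
  have h1 : ∀ i : ℕ, lamMap (cj hG (g ^ (2 * i))) x = x := by
    intro i
    induction i with
    | zero => rw [mul_zero, pow_zero, map_one, lamMap_one]
    | succ i ih =>
      rw [show 2 * (i + 1) = 2 * i + 1 + 1 by ring, pow_succ, pow_succ, map_mul, map_mul,
        lamMap_mul, lamMap_mul, h, ih]
  have h2 := h1 (t + 1)
  rwa [show 2 * (t + 1) = orderOf g + 1 by omega, pow_succ, pow_orderOf_eq_one, one_mul] at h2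

theorem gauss_mul_conj {g : G} (hodd : Odd (orderOf g)) :
    gauss hS hG g * (starRingEnd ℂ) (gauss hS hG g) =
      (Nat.card (Lam L ρ) : ℂ) * Nat.card (disp hG g).ker := by
  classical
  let a := lamMap (cj hG g)
  let b := lamMap (cj hG g⁻¹)
  have hab : ∀ x, a (b x) = x := fun x => by
    show lamMap (cj hG g) (lamMap (cj hG g⁻¹) x) = x
    rw [← lamMap_mul, ← map_mul, mul_inv_cancel, map_one, lamMap_one]
  rw [gauss, map_sum, Finset.sum_mul_sum]
  simp only [conj_gam]
  rw [Finset.sum_comm]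
  have h1 : ∀ w : Lam L ρ,
      ∑ i : Lam L ρ, gam hS i (lamMap (cj hG g) i) * gam hS (lamMap (cj hG g) w) w =
      ∑ x : Lam L ρ, gam hS x (a x) * gam hS w (a x * (b x)⁻¹) := by
    intro w
    refine (Fintype.sum_equiv (Equiv.mulLeft w) _ _ fun x => ?_).symm
    simp only [Equiv.coe_mulLeft, map_mul, gam_mul_left, gam_mul_right]
    have hx : gam hS x (lamMap (cj hG g) w) = gam hS w (b x)⁻¹ := by
      rw [gam_inv_right]
      conv_lhs => rw [← hab x]
      exact gam_lamMap hS _ _ _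
    rw [hx]
    have hw := gam_swap hS w (lamMap (cj hG g) w)
    calc gam hS x (a x) * (gam hS w (a x) * gam hS w (b x)⁻¹)
        = gam hS x (a x) * (gam hS w (a x) * gam hS w (b x)⁻¹) *
            (gam hS w (lamMap (cj hG g) w) * gam hS (lamMap (cj hG g) w) w) := by rw [hw, mul_one]
      _ = _ := by ring
  simp only [h1]
  rw [Finset.sum_comm]
  simp only [← Finset.mul_sum, sum_gam, mul_ite, mul_zero]
  rw [← Finset.sum_filter]
  have hfil : ∀ x : Lam L ρ, a x * (b x)⁻¹ = 1 ↔ x ∈ (disp hG g).ker := by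
    intro x
    rw [mul_inv_eq_one, mem_ker_disp]
    constructor
    · intro h
      refine fixed_of_sq hS hG hodd x ?_
      show a (a x) = x
      rw [h, hab]
    · intro h
      have h' : a x = x := h
      rw [h']
      conv_rhs => rw [← h']
      show x = lamMap (cj hG g⁻¹) (lamMap (cj hG g) x)
      rw [← lamMap_mul, ← map_mul, inv_mul_cancel, map_one, lamMap_one]
  rw [Finset.sum_congr rfl (g := fun _ => (Nat.card (Lam L ρ) : ℂ)) fun x hx => ?_]
  · rw [Finset.sum_const, nsmul_eq_mul, mul_comm]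
    congr 2
    rw [Nat.card_eq_fintype_card, ← Finset.card_univ]
    symm
    refine Finset.card_bij (fun x _ => x.1) ?_ ?_ ?_
    · exact fun x _ => Finset.mem_filter.2 ⟨Finset.mem_univ _, (hfil _).2 x.2⟩
    · exact fun x _ y _ h => Subtype.ext h
    · exact fun x hx => ⟨⟨x, (hfil _).1 (Finset.mem_filter.1 hx).2⟩, Finset.mem_univ _, rfl⟩
  · have h := (hfil x).1 (Finset.mem_filter.1 hx).2
    rw [mem_ker_disp] at h
    rw [show a x = x from h, gam_self, one_mul]

end CfsgLib.OddSection
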