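import Cfsg.Agent.OddSection.Reduce

/-!
# The correspondence over a fixed character of `L`, through the inertia group
-/

set_option autoImplicit false

namespace CfsgLib.OddSection

open Cfsg CfsgLib.Glauberman CfsgLib.Chars.Induced

universe u v

/-- Multiplicities in a commuting square of isomorphisms. -/
theorem mult_pull {B B' C C' : Type*} [Group B] [Group B'] [Group C] [Group C'] [Fintype B]
    [Fintype B'] [Fintype C] [Fintype C'] (f : C →* B) (f' : C' →* B') (w : B' ≃* B) (v : C' ≃* C)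
    (h : ∀ c, f (v c) = w (f' c)) (χ : IrrCharacter B) (β : IrrCharacter C) :
    CfsgLib.Glauberman.mult f' (irrPull w χ) (irrPull v β) = CfsgLib.Glauberman.mult f χ β := by
  apply mult_eq_of_classInner_eq
  rw [← CfsgLib.Glauberman.classInner_eq_mult f χ β]
  simp only [classInner, irrPull_apply, Nat.card_congr v.toEquiv, ← h]
  congr 1
  exact Fintype.sum_equiv v.toEquiv _ _ fun c => rfl

variable {G : Type u} [Group G] [Fintype G] {A : Type v} [Group A] [Fintype A]
  {act : A →* MulAut G} {K L C H : Subgroup G}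

/-- The correspondence over a fixed character of `L`. -/
theorem local_corr (hD : Data act K L C H) [Fintype H] [Fintype L] (hsol : Group.IsSolvable G)
    (hC : ∀ c, (∀ a, act a c = c) → c ∈ C) (φ : IrrCharacter L)
    (hφA : ∀ a, Fixd (act a) L (φ : L → ℂ)) :
    (∀ χ : IrrCharacter G, (∀ a g, (χ : G → ℂ) (act a g) = (χ : G → ℂ) g) →
      CfsgLib.Glauberman.mult L.subtype χ φ ≠ 0 →
      ∃ ψ : IrrCharacter H, (∀ a, Fixd (act a) H (ψ : H → ℂ)) ∧
        Odd (CfsgLib.Glauberman.mult H.subtype χ ψ) ∧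
        ∀ ψ' : IrrCharacter H,
          CfsgLib.Glauberman.mult (Subgroup.inclusion hD.LH) ψ' φ ≠ 0 →
          Odd (CfsgLib.Glauberman.mult H.subtype χ ψ') → ψ' = ψ) ∧
    (∀ χ χ' : IrrCharacter G, (∀ a g, (χ : G → ℂ) (act a g) = (χ : G → ℂ) g) →
      (∀ a g, (χ' : G → ℂ) (act a g) = (χ' : G → ℂ) g) →
      ∀ ψ : IrrCharacter H, CfsgLib.Glauberman.mult (Subgroup.inclusion hD.LH) ψ φ ≠ 0 →
      Odd (CfsgLib.Glauberman.mult H.subtype χ ψ) → Odd (CfsgLib.Glauberman.mult H.subtype χ' ψ) →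
      CfsgLib.Glauberman.mult L.subtype χ φ ≠ 0 → CfsgLib.Glauberman.mult L.subtype χ' φ ≠ 0 →
      χ = χ') ∧
    (∀ ψ : IrrCharacter H, (∀ a, Fixd (act a) H (ψ : H → ℂ)) →
      CfsgLib.Glauberman.mult (Subgroup.inclusion hD.LH) ψ φ ≠ 0 → ∃ χ : IrrCharacter G,
      (∀ a g, (χ : G → ℂ) (act a g) = (χ : G → ℂ) g) ∧
        Odd (CfsgLib.Glauberman.mult H.subtype χ ψ)) := by
  classical
  haveI := hD.nK
  haveI := hD.nL
  set T : Subgroup G := inertia L (φ : L → ℂ) with hTdef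
  have hLT : L ≤ T := le_inertia (CfsgLib.Chars.isClassFunction_coe φ)
  haveI := Fintype.ofFinite T
  haveI := Fintype.ofFinite (L.subgroupOf T)
  haveI := Fintype.ofFinite (H.subgroupOf T)
  haveI := Fintype.ofFinite (L.subgroupOf H)
  haveI := Fintype.ofFinite (T.subgroupOf H)
  have hrot : ∀ (a : A) (l : L) (l' : L), (l' : G) = act a l → (φ : L → ℂ) l' = (φ : L → ℂ) l :=
    fun a l l' h => hφA a l l' h
  have hTA : ∀ a, ∀ t ∈ T, act a t ∈ T := by
    intro a t ht
    rw [hTdef, mem_inertia] at ht ⊢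
    funext l
    rw [conjFun_apply]
    let l0 : L := ⟨act a⁻¹ l, hD.stabL a⁻¹ l l.2⟩
    have hl : (l : G) = act a (l0 : G) := by
      show (l : G) = act a (act a⁻¹ l)
      rw [← MulAut.mul_apply, ← map_mul, mul_inv_cancel, map_one]; rfl
    have h2 := congrFun ht l0
    rw [conjFun_apply] at h2
    rw [hrot a l0 l hl, ← h2]
    refine hrot a _ _ ?_
    show (act a t)⁻¹ * (l : G) * act a t = act a (t⁻¹ * (l0 : G) * t)
    rw [map_mul, map_mul, map_inv, ← hl]
  let K2 := K.subgroupOf T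
  let L2 := L.subgroupOf T
  let C2 := C.subgroupOf T
  let H2 := H.subgroupOf T
  let act2 : A →* MulAut T := autRes act T hTA
  have hcoverT : ∀ t : T, ∃ k ∈ K2, ∃ c ∈ C2, k * c = t := by
    intro t
    have hg : ∀ a, (t : G)⁻¹ * act a t ∈ K ⊓ T := by
      intro a
      refine Subgroup.mem_inf.2 ⟨?_, mul_mem (inv_mem t.2) (hTA a t t.2)⟩
      obtain ⟨k, hk, c, hc, hkc⟩ := hD.cover t
      rw [← hkc, map_mul, hD.fixC a c hc]
      have h : (k * c)⁻¹ * (act a k * c) = c⁻¹ * (k⁻¹ * act a k) * c := by group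
      rw [h]
      have h2 := hD.nK.conj_mem _ (mul_mem (inv_mem hk) (hD.stabK a k hk)) c⁻¹
      rwa [inv_inv] at h2
    obtain ⟨n, hn, hfx⟩ := exists_fixed_mem_coset hD.cop hsol (K ⊓ T)
      (fun a g hg => ⟨hD.stabK a g hg.1, hTA a g hg.2⟩) (t : G) hg
    have hc : (t : G) * n ∈ C := hC _ hfx
    refine ⟨⟨(t : G) * n⁻¹ * (t : G)⁻¹, mul_mem (mul_mem t.2 (inv_mem hn.2)) (inv_mem t.2)⟩,
      hD.nK.conj_mem _ (inv_mem hn.1) _, ⟨(t : G) * n, mul_mem t.2 hn.2⟩, hc, Subtype.ext ?_⟩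
    show (t : G) * n⁻¹ * (t : G)⁻¹ * ((t : G) * n) = t
    group
  have hH2 : H2 = L2 ⊔ C2 := by
    refine le_antisymm (fun x hx => ?_) (sup_le (fun x hx => hD.LH hx) fun x hx => hD.CH hx)
    obtain ⟨l, hl, c, hc, hlc⟩ := hD.mem_H (h := (x : G)) hx
    have hcT : c ∈ T := (Subgroup.mul_mem_cancel_left T (hLT hl)).1 (hlc ▸ x.2)
    rw [show x = (⟨l, hLT hl⟩ : T) * ⟨c, hcT⟩ from Subtype.ext hlc.symm]
    exact Subgroup.mul_mem_sup hl hc
  have hD2 : Data act2 K2 L2 C2 H2 :=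
    { odd := hD.odd.of_dvd_nat (Subgroup.card_subgroup_dvd_card T)
      cop := hD.cop.coprime_dvd_right (Subgroup.card_subgroup_dvd_card T)
      le := fun x hx => hD.le hx
      nK := inferInstance
      nL := inferInstance
      stabK := fun a k hk => hD.stabK a _ hk
      stabL := fun a k hk => hD.stabL a _ hk
      comm := fun a ha b hb => hD.comm _ ha _ hb
      cover := hcoverT
      fixC := fun a c hc => Subtype.ext (hD.fixC a _ hc)
      fixK := fun k hk h => hD.fixK _ hk fun a => h a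
      hH := hH2 }
  let φ2 : IrrCharacter L2 := McKay.toSub hLT φ
  obtain ⟨core1, core2, core3⟩ := core hD2 φ2
    (fun g l l' h => by
      have hg : conjFun L (g : G) (φ : L → ℂ) = (φ : L → ℂ) := g.2
      have h1 := congrFun hg (Subgroup.subgroupOfEquivOfLe hLT l')
      rw [conjFun_apply] at h1
      show (φ : L → ℂ) (Subgroup.subgroupOfEquivOfLe hLT l') =
        (φ : L → ℂ) (Subgroup.subgroupOfEquivOfLe hLT l)
      rw [← h1]
      refine congrArg _ (Subtype.ext ?_)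
      have h2 : ((l' : T) : G) = (g : G) * ((l : T) : G) * (g : G)⁻¹ := congrArg Subtype.val h
      show (g : G)⁻¹ * ((l' : T) : G) * (g : G) = ((l : T) : G)
      rw [h2]; group)
    (fun a l l' h => hrot a _ _ (congrArg Subtype.val h))
  -- Clifford in `H`
  let j : H2 →* H :=
    { toFun := fun x => ⟨((x : T) : G), x.2⟩
      map_one' := rfl
      map_mul' := fun _ _ => rfl }
  let w : T.subgroupOf H ≃* H2 :=
    { toFun := fun x => ⟨⟨((x : H) : G), x.2⟩, x.1.2⟩
      invFun := fun x => ⟨⟨((x : T) : G), x.2⟩, x.1.2⟩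
      left_inv := fun _ => rfl
      right_inv := fun _ => rfl
      map_mul' := fun _ _ => rfl }
  have hT' : T.subgroupOf H =
      inertia (L.subgroupOf H) (McKay.toSub hD.LH φ : L.subgroupOf H → ℂ) := by
    ext x
    rw [Subgroup.mem_subgroupOf, hTdef, mem_inertia, mem_inertia]
    constructor
    · intro h
      have h1 : conjIrr (x : G) φ = φ := Subtype.ext (by rw [conjIrr_coe]; exact h)
      have h2 := congrArg Subtype.val (McKay.conjIrr_toSub hD.LH x φ)
      rw [h1, conjIrr_coe] at h2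
      exact h2
    · intro h
      have h1 : conjIrr x (McKay.toSub hD.LH φ) = McKay.toSub hD.LH φ :=
        Subtype.ext (by rw [conjIrr_coe]; exact h)
      rw [McKay.conjIrr_toSub] at h1
      have h2 := congrArg Subtype.val (McKay.toSub_injective hD.LH h1)
      rw [conjIrr_coe] at h2
      exact h2
  have hNT : L.subgroupOf H ≤ T.subgroupOf H := fun x hx => hLT hx
  let v : L.subgroupOf H ≃* L2 :=
    { toFun := fun x => ⟨⟨((x : H) : G), hLT x.2⟩, x.2⟩
      invFun := fun x => ⟨⟨((x : T) : G), hD.LH x.2⟩, x.2⟩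
      left_inv := fun _ => rfl
      right_inv := fun _ => rfl
      map_mul' := fun _ _ => rfl }
  have hv : irrPull v φ2 = McKay.toSub hD.LH φ := rfl
  have hOverT : ∀ η : IrrCharacter H2,
      CfsgLib.Glauberman.mult (Subgroup.inclusion hNT) (irrPull w η) (McKay.toSub hD.LH φ) =
        CfsgLib.Glauberman.mult (Subgroup.inclusion hD2.LH) η φ2 := fun η => by
    rw [← hv]
    exact mult_pull (Subgroup.inclusion hD2.LH) (Subgroup.inclusion hNT) w v (fun c => rfl) η φ2
  have hjw : ∀ (ψ : IrrCharacter H) (η : IrrCharacter H2),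
      CfsgLib.Glauberman.mult (T.subgroupOf H).subtype ψ (irrPull w η) =
        CfsgLib.Glauberman.mult j ψ η := fun ψ η => by
    have h := mult_pull j (T.subgroupOf H).subtype (MulEquiv.refl H) w (fun c => rfl) ψ η
    rwa [show irrPull (MulEquiv.refl H) ψ = ψ from Subtype.ext (funext fun x => rfl)] at h
  have hwsurj : ∀ ζ : IrrCharacter (T.subgroupOf H), irrPull w (irrPull w.symm ζ) = ζ := fun ζ =>
    Subtype.ext (funext fun x => by simp)
  have down : ∀ ψ : IrrCharacter H,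
      CfsgLib.Glauberman.mult (Subgroup.inclusion hD.LH) ψ φ ≠ 0 → ∃ η : IrrCharacter H2,
        CfsgLib.Glauberman.mult (Subgroup.inclusion hD2.LH) η φ2 ≠ 0 ∧
        CfsgLib.Glauberman.mult j ψ η = 1 ∧ ∀ η' : IrrCharacter H2,
          CfsgLib.Glauberman.mult (Subgroup.inclusion hD2.LH) η' φ2 ≠ 0 →
          CfsgLib.Glauberman.mult j ψ η' ≠ 0 → η' = η := by
    intro ψ hψ
    obtain ⟨ζ, h1, h2, h3⟩ := NormalSylow.clifford_down (L.subgroupOf H) (McKay.toSub hD.LH φ)
      (T.subgroupOf H) hT' hNT ψ (by rw [McKay.mult_toSub]; exact hψ)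
    refine ⟨irrPull w.symm ζ, ?_, ?_, fun η' h4 h5 => ?_⟩
    · rw [← hOverT, hwsurj]; exact h1
    · rw [← hjw, hwsurj]; exact h2
    · by_contra hne
      rw [← hOverT] at h4
      rw [← hjw] at h5
      refine h5 (h3 _ h4 fun he => hne ?_)
      rw [← he]
      exact Subtype.ext (funext fun x => by simp)
  have up : ∀ η : IrrCharacter H2,
      CfsgLib.Glauberman.mult (Subgroup.inclusion hD2.LH) η φ2 ≠ 0 → ∃ ψ : IrrCharacter H,
        CfsgLib.Glauberman.mult (Subgroup.inclusion hD.LH) ψ φ ≠ 0 ∧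
        CfsgLib.Glauberman.mult j ψ η = 1 ∧ ∀ ψ' : IrrCharacter H,
          CfsgLib.Glauberman.mult j ψ' η ≠ 0 → ψ' = ψ := by
    intro η hη
    obtain ⟨ψ, h1, h2, h3⟩ := NormalSylow.clifford_up (L.subgroupOf H) (McKay.toSub hD.LH φ)
      (T.subgroupOf H) hT' hNT (irrPull w η) (by rw [hOverT]; exact hη)
    exact ⟨ψ, by rw [← McKay.mult_toSub]; exact h1, by rw [← hjw]; exact h2,
      fun ψ' h4 => h3 ψ' (by rw [hjw]; exact h4)⟩
  -- invariance
  have hHA : ∀ a, ∀ h ∈ H, act a h ∈ H := by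
    intro a h hh
    obtain ⟨l, hl, c, hc, rfl⟩ := hD.mem_H hh
    rw [map_mul, hD.fixC a c hc]
    exact mul_mem (hD.LH (hD.stabL a l hl)) (hD.CH hc)
  have hH2A : ∀ a, ∀ x ∈ H2, act2 a x ∈ H2 := fun a x hx => hHA a _ hx
  have hφpull : ∀ a, irrPull (autRes act L hD.stabL a) φ = φ := fun a =>
    Subtype.ext (funext fun l => hrot a l _ rfl)
  have hφ2pull : ∀ a, irrPull (autRes act2 L2 hD2.stabL a) φ2 = φ2 := fun a =>
    Subtype.ext (funext fun l => hrot a _ _ rfl)
  have hjA : ∀ a (ψ : IrrCharacter H) (η : IrrCharacter H2),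
      CfsgLib.Glauberman.mult j (irrPull (autRes act H hHA a) ψ)
        (irrPull (autRes act2 H2 hH2A a) η) = CfsgLib.Glauberman.mult j ψ η := fun a ψ η =>
    mult_pull j j (autRes act H hHA a) (autRes act2 H2 hH2A a) (fun c => rfl) ψ η
  have hoverA : ∀ a (η : IrrCharacter H2),
      CfsgLib.Glauberman.mult (Subgroup.inclusion hD2.LH) (irrPull (autRes act2 H2 hH2A a) η) φ2 =
        CfsgLib.Glauberman.mult (Subgroup.inclusion hD2.LH) η φ2 := fun a η => by
    conv_lhs => rw [← hφ2pull a]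
    exact mult_pull _ _ (autRes act2 H2 hH2A a) (autRes act2 L2 hD2.stabL a) (fun c => rfl) η φ2
  -- the transfer of multiplicities
  have hxi : ∀ χ : IrrCharacter G, CfsgLib.Glauberman.mult L.subtype χ φ ≠ 0 →
      ∃ ξ : IrrCharacter T, CfsgLib.Glauberman.mult L2.subtype ξ φ2 ≠ 0 ∧
        CfsgLib.Glauberman.mult T.subtype χ ξ = 1 ∧ ∀ ξ' : IrrCharacter T,
          CfsgLib.Glauberman.mult L2.subtype ξ' φ2 ≠ 0 → ξ' ≠ ξ →
          CfsgLib.Glauberman.mult T.subtype χ ξ' = 0 := by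
    intro χ hχ
    obtain ⟨ξ, h1, h2, h3⟩ := NormalSylow.clifford_down L φ T hTdef hLT χ hχ
    exact ⟨ξ, by rw [McKay.mult_toSub]; exact h1, h2,
      fun ξ' h h' => h3 ξ' (by rwa [McKay.mult_toSub] at h) h'⟩
  have trans : ∀ (χ : IrrCharacter G) (ξ : IrrCharacter T),
      CfsgLib.Glauberman.mult T.subtype χ ξ = 1 →
      (∀ ξ' : IrrCharacter T, CfsgLib.Glauberman.mult L2.subtype ξ' φ2 ≠ 0 → ξ' ≠ ξ →
          CfsgLib.Glauberman.mult T.subtype χ ξ' = 0) →
      ∀ (ψ : IrrCharacter H) (η : IrrCharacter H2),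
        CfsgLib.Glauberman.mult (Subgroup.inclusion hD2.LH) η φ2 ≠ 0 →
        CfsgLib.Glauberman.mult j ψ η = 1 →
        (∀ ψ' : IrrCharacter H, CfsgLib.Glauberman.mult j ψ' η ≠ 0 → ψ' = ψ) →
        CfsgLib.Glauberman.mult H.subtype χ ψ = CfsgLib.Glauberman.mult H2.subtype ξ η := by
    intro χ ξ h1 hu ψ η hη h2 hu2
    have e1 : CfsgLib.Glauberman.mult (H.subtype.comp j) χ η =
        CfsgLib.Glauberman.mult H.subtype χ ψ := by
      rw [mult_comp, Finset.sum_eq_single ψ]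
      · rw [h2, mul_one]
      · intro ψ' _ hne
        rw [show CfsgLib.Glauberman.mult j ψ' η = 0 from by_contra fun h => hne (hu2 ψ' h), mul_zero]
      · exact fun h => absurd (Finset.mem_univ _) h
    have e2 : CfsgLib.Glauberman.mult (T.subtype.comp H2.subtype) χ η =
        CfsgLib.Glauberman.mult H2.subtype ξ η := by
      rw [mult_comp, Finset.sum_eq_single ξ]
      · rw [h1, one_mul]
      · intro ξ' _ hne
        by_cases h : CfsgLib.Glauberman.mult H2.subtype ξ' η = 0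
        · rw [h, mul_zero]
        · have h4 := McKay.over_trans H2.subtype (Subgroup.inclusion hD2.LH) ξ' η φ2 h hη
          rw [hu ξ' h4 hne, zero_mul]
      · exact fun h => absurd (Finset.mem_univ _) h
    rw [← e1, ← e2]
    rfl
  have hxiA : ∀ (χ : IrrCharacter G), (∀ a g, (χ : G → ℂ) (act a g) = (χ : G → ℂ) g) →
      ∀ ξ : IrrCharacter T, CfsgLib.Glauberman.mult L2.subtype ξ φ2 ≠ 0 →
      CfsgLib.Glauberman.mult T.subtype χ ξ = 1 →
      (∀ ξ' : IrrCharacter T, CfsgLib.Glauberman.mult L2.subtype ξ' φ2 ≠ 0 → ξ' ≠ ξ →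
          CfsgLib.Glauberman.mult T.subtype χ ξ' = 0) →
      ∀ a t, (ξ : T → ℂ) (act2 a t) = (ξ : T → ℂ) t := by
    intro χ hχA ξ h1 h2 hu a t
    have h3 : irrPull (act2 a) ξ = ξ := by
      by_contra hne
      have e1 := mult_pull L2.subtype L2.subtype (act2 a) (autRes act2 L2 hD2.stabL a)
        (fun c => rfl) ξ φ2
      rw [hφ2pull] at e1
      have h4 := hu _ (by rw [e1]; exact h1) hne
      have e2 := mult_pull T.subtype T.subtype (act a) (act2 a) (fun c => rfl) χ ξ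
      rw [show irrPull (act a) χ = χ from Subtype.ext (funext fun g => hχA a g), h4, h2] at e2
      exact zero_ne_one e2
    exact congrArg (fun x : IrrCharacter T => (x : T → ℂ) t) h3
  refine ⟨fun χ hχA hχ => ?_, fun χ χ' hA hA' ψ hψ h h' hχ hχ' => ?_, fun ψ hψA hψ => ?_⟩
  · obtain ⟨ξ, hξ1, hξ2, hξu⟩ := hxi χ hχ
    obtain ⟨η, hηA, hηo, hηu⟩ := core1 ξ (hxiA χ hχA ξ hξ1 hξ2 hξu) hξ1
    have hη : CfsgLib.Glauberman.mult (Subgroup.inclusion hD2.LH) η φ2 ≠ 0 := by
      obtain ⟨β, hβ⟩ := McKay.exists_under (Subgroup.inclusion hD2.LH) η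
      have hη0 : CfsgLib.Glauberman.mult H2.subtype ξ η ≠ 0 := fun h => by
        rw [h] at hηo; exact Nat.not_odd_zero hηo
      have hβξ := McKay.over_trans H2.subtype (Subgroup.inclusion hD2.LH) ξ η β hη0 hβ
      haveI := hD2.nL
      obtain ⟨x, hx⟩ := NormalSylow.mem_conjOrbit ξ φ2 β hξ1 hβξ
      have : conjIrr x φ2 = φ2 := by
        refine Subtype.ext (funext fun l => ?_)
        have hg : conjFun L (x : G) (φ : L → ℂ) = (φ : L → ℂ) := x.2
        have h1 := congrFun hg (Subgroup.subgroupOfEquivOfLe hLT l)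
        rw [conjFun_apply] at h1
        rw [conjIrr_coe, conjFun_apply]
        exact h1
      rw [← this, hx]
      exact hβ
    obtain ⟨ψ, hψ1, hψ2, hψu⟩ := up η hη
    refine ⟨ψ, fun a x x' hxx => ?_, ?_, fun ψ' hψ' hodd => ?_⟩
    · have h1 : irrPull (autRes act H hHA a) ψ = ψ := hψu _ (by
        have h2 := hjA a ψ η
        rw [show irrPull (autRes act2 H2 hH2A a) η = η from
          Subtype.ext (funext fun y => hηA a y _ rfl)] at h2
        rw [h2, hψ2]
        exact one_ne_zero)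
      have h3 := congrArg (fun z : IrrCharacter H => (z : H → ℂ) x) h1
      rw [← h3]
      exact congrArg _ (Subtype.ext hxx)
    · rw [trans χ ξ hξ2 hξu ψ η hη hψ2 hψu]
      exact hηo
    · obtain ⟨η', hη'1, hη'2, -⟩ := down ψ' hψ'
      obtain ⟨ψ'', hψ''1, hψ''2, hψ''u⟩ := up η' hη'1
      have he : ψ' = ψ'' := hψ''u ψ' (by rw [hη'2]; exact one_ne_zero)
      subst he
      rw [trans χ ξ hξ2 hξu ψ' η' hη'1 hη'2 hψ''u] at hodd
      have h5 := hηu η' hodd
      subst h5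
      exact hψu ψ' (by rw [hη'2]; exact one_ne_zero)
  · obtain ⟨ξ, hξ1, hξ2, hξu⟩ := hxi χ hχ
    obtain ⟨ξ', hξ'1, hξ'2, hξ'u⟩ := hxi χ' hχ'
    obtain ⟨η, hη, hη2, -⟩ := down ψ hψ
    obtain ⟨ψ'', -, -, hψu⟩ := up η hη
    have he : ψ = ψ'' := hψu ψ (by rw [hη2]; exact one_ne_zero)
    subst he
    rw [trans χ ξ hξ2 hξu ψ η hη hη2 hψu] at h
    rw [trans χ' ξ' hξ'2 hξ'u ψ η hη hη2 hψu] at h'
    have hee := core2 ξ ξ' (hxiA χ hA ξ hξ1 hξ2 hξu) (hxiA χ' hA' ξ' hξ'1 hξ'2 hξ'u) hξ1 hξ'1 η h h'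
    subst hee
    obtain ⟨χ'', -, -, hu⟩ := NormalSylow.clifford_up L φ T hTdef hLT ξ
      (by rw [← McKay.mult_toSub]; exact hξ1)
    rw [hu χ (by rw [hξ2]; exact one_ne_zero), hu χ' (by rw [hξ'2]; exact one_ne_zero)]
  · obtain ⟨η, hη, hη2, hηu⟩ := down ψ hψ
    obtain ⟨ψ'', -, -, hψu⟩ := up η hη
    have he : ψ = ψ'' := hψu ψ (by rw [hη2]; exact one_ne_zero)
    subst he
    have hηA : ∀ a, Fixd (act2 a) H2 (η : H2 → ℂ) := by
      intro a y y' hyy
      have h1 : irrPull (autRes act2 H2 hH2A a) η = η := hηu _ (by rw [hoverA]; exact hη) (by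
        have h2 := hjA a ψ η
        rw [show irrPull (autRes act H hHA a) ψ = ψ from
          Subtype.ext (funext fun x => hψA a x _ rfl)] at h2
        rw [h2, hη2]
        exact one_ne_zero)
      have h3 := congrArg (fun z : IrrCharacter H2 => (z : H2 → ℂ) y) h1
      rw [← h3]
      exact congrArg _ (Subtype.ext hyy)
    obtain ⟨ξ, hξA, hξ1, hξo⟩ := core3 η hηA hη
    obtain ⟨χ, hχ, hχξ, hu⟩ := NormalSylow.clifford_up L φ T hTdef hLT ξ
      (by rw [← McKay.mult_toSub]; exact hξ1)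
    have hχA : ∀ a g, (χ : G → ℂ) (act a g) = (χ : G → ℂ) g := by
      intro a g
      have h1 : irrPull (act a) χ = χ := hu _ (by
        have e2 := mult_pull T.subtype T.subtype (act a) (act2 a) (fun c => rfl) χ ξ
        rw [show irrPull (act2 a) ξ = ξ from Subtype.ext (funext fun t => hξA a t)] at e2
        rw [e2, hχξ]
        exact one_ne_zero)
      exact congrArg (fun z : IrrCharacter G => (z : G → ℂ) g) h1
    refine ⟨χ, hχA, ?_⟩
    obtain ⟨ξ0, hξ01, hξ02, hξ0u⟩ := hxi χ hχ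
    have he : ξ = ξ0 := by
      by_contra hne
      rw [hξ0u ξ hξ1 hne] at hχξ
      exact zero_ne_one hχξ
    subst he
    rw [trans χ ξ hξ02 hξ0u ψ η hη hη2 hψu]
    exact hξo

end CfsgLib.OddSection
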