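import Cfsg.Agent.OddSection.Local

/-!
# The character correspondence of an abelian section under coprime action on a group of odd order
-/

set_option autoImplicit false

namespace CfsgLib.OddSection

open Cfsg CfsgLib.Glauberman CfsgLib.Chars.Induced

universe u v

variable {G : Type u} [Group G] [Fintype G] {A : Type v} [Group A] [Fintype A]
  {act : A →* MulAut G} {K L C H : Subgroup G}

/-- Shrinking `K` so that `A` fixes nothing on the section. -/
theorem exists_data (hodd : Odd (Nat.card G)) (hcop : (Nat.card A).Coprime (Nat.card G))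
    (hsol : Group.IsSolvable G) (hLK : L ≤ K) (hKn : K.Normal) (hLn : L.Normal)
    (hKA : ∀ a, ∀ k ∈ K, act a k ∈ K) (hLA : ∀ a, ∀ l ∈ L, act a l ∈ L)
    (hab : ∀ a ∈ K, ∀ b ∈ K, a * b * a⁻¹ * b⁻¹ ∈ L) (hcov : K ⊔ C = ⊤)
    (hC : ∀ c, c ∈ C ↔ ∀ a, act a c = c) (hH : H = L ⊔ C) :
    ∃ K' : Subgroup G, Data act K' L C H := by
  classical
  haveI := hKn
  haveI := hLn
  let L' : Subgroup K := L.subgroupOf K
  have hab' : ∀ a b : K, a * b * a⁻¹ * b⁻¹ ∈ L' := fun a b => hab a a.2 b b.2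
  letI : CommGroup (K ⧸ L') :=
    { (inferInstance : Group (K ⧸ L')) with
      mul_comm := by
        intro x y
        obtain ⟨a, rfl⟩ := QuotientGroup.mk_surjective x
        obtain ⟨b, rfl⟩ := QuotientGroup.mk_surjective y
        rw [← QuotientGroup.mk_mul, ← QuotientGroup.mk_mul, QuotientGroup.eq]
        have h : (a * b)⁻¹ * (b * a) = b⁻¹ * a⁻¹ * (b⁻¹)⁻¹ * (a⁻¹)⁻¹ := by group
        rw [h]
        exact hab' _ _ }
  let actK : A →* MulAut K := autRes act K hKA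
  let q : K →* K ⧸ L' := QuotientGroup.mk' L'
  let N : K →* K ⧸ L' :=
    { toFun := fun k => ∏ a : A, q (actK a k)
      map_one' := by simp
      map_mul' := fun x y => by simp only [map_mul, Finset.prod_mul_distrib] }
  have hNapp : ∀ k, N k = ∏ a : A, q (actK a k) := fun k => rfl
  have hNshift : ∀ b k, N (actK b k) = N k := by
    intro b k
    rw [hNapp, hNapp]
    refine Fintype.prod_equiv (Equiv.mulRight b) _ _ fun a => ?_
    rw [Equiv.coe_mulRight, map_mul]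
    rfl
  let K' : Subgroup G := N.ker.map K.subtype
  have hmem : ∀ x : G, x ∈ K' ↔ ∃ h : x ∈ K, N ⟨x, h⟩ = 1 := by
    intro x
    constructor
    · rintro ⟨y, hy, rfl⟩
      exact ⟨y.2, hy⟩
    · rintro ⟨h, hx⟩
      exact ⟨⟨x, h⟩, hx, rfl⟩
  have hKle : K' ≤ K := Subgroup.map_subtype_le _
  have hLle : L ≤ K' := by
    intro l hl
    refine (hmem l).2 ⟨hLK hl, ?_⟩
    rw [hNapp]
    exact Finset.prod_eq_one fun a _ => (QuotientGroup.eq_one_iff _).2 (hLA a l hl)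
  have hfixq : ∀ c : K, (c : G) ∈ C → N c = q c ^ Nat.card A := by
    intro c hc
    rw [hNapp, Nat.card_eq_fintype_card, ← Finset.card_univ, ← Finset.prod_const]
    refine Finset.prod_congr rfl fun a _ => congrArg q (Subtype.ext ?_)
    exact (hC c).1 hc a
  have hnK' : K'.Normal := by
    constructor
    intro x hx g
    obtain ⟨hxK, hx1⟩ := (hmem x).1 hx
    obtain ⟨k, hk, c, hc, rfl⟩ : ∃ k ∈ K, ∃ c ∈ C, k * c = g :=
      Subgroup.mem_sup_of_normal_left.1 (by rw [hcov]; exact Subgroup.mem_top g)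
    have hy : c * x * c⁻¹ ∈ K' := by
      refine (hmem _).2 ⟨hKn.conj_mem x hxK c, ?_⟩
      let f : K ⧸ L' →* K ⧸ L' := QuotientGroup.map L' L' (MulAut.conjNormal c : MulAut K).toMonoidHom
        (fun l hl => by
          show ((MulAut.conjNormal c l : K) : G) ∈ L
          rw [MulAut.conjNormal_apply]
          exact hLn.conj_mem _ hl c)
      have h1 : f (N ⟨x, hxK⟩) = N ⟨c * x * c⁻¹, hKn.conj_mem x hxK c⟩ := by
        rw [hNapp, hNapp, map_prod]
        refine Finset.prod_congr rfl fun a _ => ?_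
        show q (MulAut.conjNormal c (actK a ⟨x, hxK⟩)) = _
        refine congrArg q (Subtype.ext ?_)
        rw [MulAut.conjNormal_apply]
        show c * act a x * c⁻¹ = act a (c * x * c⁻¹)
        rw [map_mul, map_mul, map_inv, (hC c).1 hc a]
      rw [← h1, hx1, map_one]
    obtain ⟨hyK, hy1⟩ := (hmem _).1 hy
    have h2 : k * c * x * (k * c)⁻¹ = k * (c * x * c⁻¹) * k⁻¹ := by group
    rw [h2]
    refine (hmem _).2 ⟨mul_mem (mul_mem hk hyK) (inv_mem hk), ?_⟩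
    rw [show (⟨k * (c * x * c⁻¹) * k⁻¹, _⟩ : K) = ⟨k, hk⟩ * ⟨c * x * c⁻¹, hyK⟩ * ⟨k, hk⟩⁻¹ from rfl,
      map_mul, map_mul, map_inv, hy1, mul_one, mul_inv_cancel]
  haveI := hnK'
  have hcov' : K' ⊔ C = ⊤ := by
    rw [eq_top_iff, ← hcov]
    refine sup_le (fun k hk => ?_) le_sup_right
    obtain ⟨x, hx⟩ := QuotientGroup.mk'_surjective L' (N ⟨k, hk⟩)
    have hxfix : ∀ a, (x : G)⁻¹ * act a x ∈ L := by
      intro a
      let f : K ⧸ L' →* K ⧸ L' := QuotientGroup.map L' L' (actK a).toMonoidHom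
        (fun l hl => hLA a l hl)
      have h1 : f (N ⟨k, hk⟩) = N ⟨k, hk⟩ := by
        rw [hNapp, map_prod]
        refine Fintype.prod_equiv (Equiv.mulLeft a) _ _ fun b => ?_
        show q (actK a (actK b ⟨k, hk⟩)) = q (actK (a * b) ⟨k, hk⟩)
        rw [map_mul]
        rfl
      rw [← hx] at h1
      have h2 : x⁻¹ * actK a x ∈ L' := QuotientGroup.eq.1 (h1.symm : q x = q (actK a x))
      exact h2
    obtain ⟨l, hl, hfx⟩ := exists_fixed_mem_coset hcop hsol L hLA (x : G) hxfix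
    have hc : (x : G) * l ∈ C := (hC _).2 hfx
    set c : K := ⟨(x : G) * l, mul_mem x.2 (hLK hl)⟩
    have hqc : q c = N ⟨k, hk⟩ := by
      rw [← hx, show c = x * ⟨l, hLK hl⟩ from rfl, map_mul,
        show q ⟨l, hLK hl⟩ = 1 from (QuotientGroup.eq_one_iff _).2 hl, mul_one]
    have h2 : (k ^ Nat.card A) * ((x : G) * l)⁻¹ ∈ K' := by
      refine (hmem _).2 ⟨mul_mem (pow_mem hk _) (inv_mem c.2), ?_⟩
      rw [show (⟨k ^ Nat.card A * ((x : G) * l)⁻¹, _⟩ : K) = ⟨k, hk⟩ ^ Nat.card A * c⁻¹ from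
        Subtype.ext (by simp [c]), map_mul, map_pow, map_inv, hfixq c hc, hqc, mul_inv_cancel]
    have h3 : k ^ Nat.card A ∈ K' ⊔ C := by
      have h4 := Subgroup.mul_mem_sup h2 hc
      rwa [inv_mul_cancel_right] at h4
    obtain ⟨m, hm⟩ := exists_pow_eq_self_of_coprime (n := Nat.card A) (x := k)
      (hcop.coprime_dvd_right (orderOf_dvd_natCard k))
    rw [← hm]
    exact pow_mem h3 m
  refine ⟨K', ⟨hodd, hcop, hLle, hnK', hLn, ?_, hLA,
    fun a ha b hb => hab a (hKle ha) b (hKle hb), ?_, fun a c hc => (hC c).1 hc a, ?_, hH⟩⟩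
  · intro a k hk
    obtain ⟨hkK, hk1⟩ := (hmem k).1 hk
    refine (hmem _).2 ⟨hKA a k hkK, ?_⟩
    rw [← hk1]
    exact hNshift a ⟨k, hkK⟩
  · intro g
    exact Subgroup.mem_sup_of_normal_left.1 (by rw [hcov']; exact Subgroup.mem_top g)
  · intro k hk hfix
    obtain ⟨hkK, hk1⟩ := (hmem k).1 hk
    have h1 : N ⟨k, hkK⟩ = q ⟨k, hkK⟩ ^ Nat.card A := by
      rw [hNapp, Nat.card_eq_fintype_card, ← Finset.card_univ, ← Finset.prod_const]
      refine Finset.prod_congr rfl fun a _ => QuotientGroup.eq_iff_div_mem.2 ?_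
      show act a k / k ∈ L
      rw [div_eq_mul_inv]
      exact hfix a
    rw [hk1] at h1
    have h2 : q ⟨k, hkK⟩ ^ Nat.card G = 1 := by
      rw [← map_pow, show (⟨k, hkK⟩ : K) ^ Nat.card G = 1 from Subtype.ext (by simp), map_one]
    have h3 := (pow_gcd_eq_one (a := q ⟨k, hkK⟩) (m := Nat.card A) (n := Nat.card G)).2 ⟨h1.symm, h2⟩
    rw [hcop.gcd_eq_one, pow_one] at h3
    have h4 : (⟨k, hkK⟩ : K) ∈ L' := (QuotientGroup.eq_one_iff _).1 h3
    exact h4

/-- The correspondence. -/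
theorem correspondence [Fintype H] (hodd : Odd (Nat.card G))
    (hcop : (Nat.card A).Coprime (Nat.card G)) (hsol : Group.IsSolvable G) (hLK : L ≤ K)
    (hKn : K.Normal) (hLn : L.Normal) (hKA : ∀ a, ∀ k ∈ K, act a k ∈ K)
    (hLA : ∀ a, ∀ l ∈ L, act a l ∈ L) (hab : ∀ a ∈ K, ∀ b ∈ K, a * b * a⁻¹ * b⁻¹ ∈ L)
    (hcov : K ⊔ C = ⊤) (hC : ∀ c, c ∈ C ↔ ∀ a, act a c = c) (hH : H = L ⊔ C) :
    (∀ χ : IrrCharacter G, (∀ a g, (χ : G → ℂ) (act a g) = (χ : G → ℂ) g) →
      ∃! ψ : IrrCharacter H, (∀ a, Fixd (act a) H (ψ : H → ℂ)) ∧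
        Odd (CfsgLib.Glauberman.mult H.subtype χ ψ)) ∧
    (∀ χ χ' : IrrCharacter G, (∀ a g, (χ : G → ℂ) (act a g) = (χ : G → ℂ) g) →
      (∀ a g, (χ' : G → ℂ) (act a g) = (χ' : G → ℂ) g) →
      ∀ ψ : IrrCharacter H, (∀ a, Fixd (act a) H (ψ : H → ℂ)) →
      Odd (CfsgLib.Glauberman.mult H.subtype χ ψ) → Odd (CfsgLib.Glauberman.mult H.subtype χ' ψ) →
      χ = χ') ∧
    (∀ ψ : IrrCharacter H, (∀ a, Fixd (act a) H (ψ : H → ℂ)) → ∃ χ : IrrCharacter G,
      (∀ a g, (χ : G → ℂ) (act a g) = (χ : G → ℂ) g) ∧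
        Odd (CfsgLib.Glauberman.mult H.subtype χ ψ)) := by
  classical
  haveI := hLn
  haveI := Fintype.ofFinite L
  obtain ⟨K', hD⟩ := exists_data hodd hcop hsol hLK hKn hLn hKA hLA hab hcov hC hH
  have hHA : ∀ a, ∀ h ∈ H, act a h ∈ H := by
    intro a h hh
    obtain ⟨l, hl, c, hc, rfl⟩ := hD.mem_H hh
    rw [map_mul, hD.fixC a c hc]
    exact mul_mem (hD.LH (hD.stabL a l hl)) (hD.CH hc)
  haveI := Fintype.ofFinite (L.subgroupOf H)
  -- a fixed constituent below an invariant character of `H`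
  have hunderH : ∀ ψ : IrrCharacter H, (∀ a, Fixd (act a) H (ψ : H → ℂ)) →
      ∃ φ : IrrCharacter L, (∀ a, Fixd (act a) L (φ : L → ℂ)) ∧
        CfsgLib.Glauberman.mult (Subgroup.inclusion hD.LH) ψ φ ≠ 0 := by
    intro ψ hψ
    obtain ⟨φ, hφ, hfix⟩ := exists_fixed_char hLA hcop hsol H hHA
      {β : IrrCharacter L | CfsgLib.Glauberman.mult (Subgroup.inclusion hD.LH) ψ β ≠ 0}
      (McKay.exists_under _ ψ)
      (fun a β hβ => by
        have h1 := mult_pull (Subgroup.inclusion hD.LH) (Subgroup.inclusion hD.LH)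
          (autRes act H hHA a) (autRes act L hLA a) (fun c => rfl) ψ β
        rw [show irrPull (autRes act H hHA a) ψ = ψ from
          Subtype.ext (funext fun x => hψ a x _ rfl)] at h1
        show CfsgLib.Glauberman.mult (Subgroup.inclusion hD.LH) ψ _ ≠ 0
        rw [h1]
        exact hβ)
      (fun g hg β hβ => by
        show CfsgLib.Glauberman.mult (Subgroup.inclusion hD.LH) ψ _ ≠ 0
        rw [← McKay.mult_toSub, ← McKay.conjIrr_toSub hD.LH ⟨g, hg⟩ β, NormalSylow.mult_conjIrr,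
          McKay.mult_toSub]
        exact hβ)
      (fun β hβ β' hβ' => by
        obtain ⟨x, hx⟩ := NormalSylow.mem_conjOrbit ψ (McKay.toSub hD.LH β) (McKay.toSub hD.LH β')
          (by rw [McKay.mult_toSub]; exact hβ) (by rw [McKay.mult_toSub]; exact hβ')
        rw [McKay.conjIrr_toSub] at hx
        exact ⟨(x : G), x.2, McKay.toSub_injective hD.LH hx⟩)
    exact ⟨φ, hfix, hφ⟩
  have hunderG : ∀ χ : IrrCharacter G, (∀ a g, (χ : G → ℂ) (act a g) = (χ : G → ℂ) g) →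
      ∃ φ : IrrCharacter L, (∀ a, Fixd (act a) L (φ : L → ℂ)) ∧
        CfsgLib.Glauberman.mult L.subtype χ φ ≠ 0 := by
    intro χ hχ
    obtain ⟨φ, hφ, hfix⟩ := exists_fixed_char hLA hcop hsol ⊤ (fun _ _ _ => Subgroup.mem_top _)
      {β : IrrCharacter L | CfsgLib.Glauberman.mult L.subtype χ β ≠ 0}
      (McKay.exists_under _ χ)
      (fun a β hβ => by
        have h1 := mult_pull L.subtype L.subtype (act a) (autRes act L hLA a) (fun c => rfl) χ β
        rw [show irrPull (act a) χ = χ from Subtype.ext (funext fun x => hχ a x)] at h1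
        show CfsgLib.Glauberman.mult L.subtype χ _ ≠ 0
        rw [h1]
        exact hβ)
      (fun g _ β hβ => by
        show CfsgLib.Glauberman.mult L.subtype χ _ ≠ 0
        rw [NormalSylow.mult_conjIrr]
        exact hβ)
      (fun β hβ β' hβ' => by
        obtain ⟨x, hx⟩ := NormalSylow.mem_conjOrbit χ β β' hβ hβ'
        exact ⟨x, Subgroup.mem_top _, hx⟩)
    exact ⟨φ, hfix, hφ⟩
  -- an invariant character below `χ` with odd multiplicity lies over every fixed `φ` below `χ`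
  have hover : ∀ χ : IrrCharacter G, ∀ φ : IrrCharacter L, (∀ a, Fixd (act a) L (φ : L → ℂ)) →
      CfsgLib.Glauberman.mult L.subtype χ φ ≠ 0 → ∀ ψ : IrrCharacter H,
      (∀ a, Fixd (act a) H (ψ : H → ℂ)) → Odd (CfsgLib.Glauberman.mult H.subtype χ ψ) →
      CfsgLib.Glauberman.mult (Subgroup.inclusion hD.LH) ψ φ ≠ 0 := by
    intro χ φ hφ hχφ ψ hψ hodd'
    obtain ⟨β, hβ, hψβ⟩ := hunderH ψ hψ
    have hne : CfsgLib.Glauberman.mult H.subtype χ ψ ≠ 0 := fun h => by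
      rw [h] at hodd'; exact Nat.not_odd_zero hodd'
    have hχβ : CfsgLib.Glauberman.mult L.subtype χ β ≠ 0 :=
      McKay.over_trans H.subtype (Subgroup.inclusion hD.LH) χ ψ β hne hψβ
    obtain ⟨x, hx⟩ := NormalSylow.mem_conjOrbit χ β φ hχβ hχφ
    obtain ⟨c, hc, hcβ⟩ := exists_fixed_conjugator hLA hcop hsol hβ hφ hx
    have hcH : c ∈ H := hD.CH ((hC c).2 hc)
    rw [← hcβ, ← McKay.mult_toSub, ← McKay.conjIrr_toSub hD.LH ⟨c, hcH⟩ β,
      NormalSylow.mult_conjIrr, McKay.mult_toSub]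
    exact hψβ
  refine ⟨fun χ hχ => ?_, fun χ χ' h h' ψ hψ ho ho' => ?_, fun ψ hψ => ?_⟩
  · obtain ⟨φ, hφ, hχφ⟩ := hunderG χ hχ
    obtain ⟨ψ, h1, h2, h3⟩ := (local_corr hD hsol (fun c hc => (hC c).2 hc) φ hφ).1 χ hχ hχφ
    exact ⟨ψ, ⟨h1, h2⟩, fun ψ' h => h3 ψ' (hover χ φ hφ hχφ ψ' h.1 h.2) h.2⟩
  · obtain ⟨φ, hφ, hψφ⟩ := hunderH ψ hψ
    have hk : ∀ ξ : IrrCharacter G, Odd (CfsgLib.Glauberman.mult H.subtype ξ ψ) →
        CfsgLib.Glauberman.mult L.subtype ξ φ ≠ 0 := fun ξ hξ =>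
      McKay.over_trans H.subtype (Subgroup.inclusion hD.LH) ξ ψ φ
        (fun h0 => by rw [h0] at hξ; exact Nat.not_odd_zero hξ) hψφ
    exact (local_corr hD hsol (fun c hc => (hC c).2 hc) φ hφ).2.1 χ χ' h h' ψ hψφ ho ho'
      (hk χ ho) (hk χ' ho')
  · obtain ⟨φ, hφ, hψφ⟩ := hunderH ψ hψ
    exact (local_corr hD hsol (fun c hc => (hC c).2 hc) φ hφ).2.2 ψ hψ hψφ

end CfsgLib.OddSection
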