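import Cfsg.Agent.OddSection.Avg
import Mathlib.GroupTheory.FiniteAbelian.Duality
import Mathlib.LinearAlgebra.Matrix.NonsingularInverse
import Mathlib.Analysis.Complex.Polynomial.Basic

/-!
# Intertwiners between an irreducible representation and its twists by an abelian section

`K` is a group with a normal subgroup `L` with abelian quotient and `ρ` an irreducible matrix
representation of `K`.  For a linear character `μ` of `K / L` a matrix `X` is an eigen matrix if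
`ρ k X = μ k • X ρ k`.  The `μ` having a nonzero eigen matrix are those with `θ μ = θ`.
-/

set_option autoImplicit false

namespace CfsgLib.OddSection

open Matrix

variable {K : Type*} [Group K] [Fintype K] {n : Type*} [Fintype n] [DecidableEq n]

/-- The characters of `K` trivial on `L`. -/
def charOver (L : Subgroup K) : Subgroup (K →* ℂˣ) where
  carrier := {μ | ∀ l ∈ L, μ l = 1}
  one_mem' := fun _ _ => rfl
  mul_mem' := fun {a b} ha hb l hl => by rw [MonoidHom.mul_apply, ha l hl, hb l hl, one_mul]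
  inv_mem' := fun {a} ha l hl => by rw [MonoidHom.inv_apply, ha l hl, inv_one]

/-- The characters over `L` fixing the function `θ`. -/
def Lam (L : Subgroup K) (ρ : K →* Matrix n n ℂ) : Subgroup (K →* ℂˣ) where
  carrier := {μ | (∀ l ∈ L, μ l = 1) ∧ ∀ k, (ρ k).trace ≠ 0 → μ k = 1}
  one_mem' := ⟨fun _ _ => rfl, fun _ _ => rfl⟩
  mul_mem' := fun {a b} ha hb =>
    ⟨fun l hl => by rw [MonoidHom.mul_apply, ha.1 l hl, hb.1 l hl, one_mul],
     fun k hk => by rw [MonoidHom.mul_apply, ha.2 k hk, hb.2 k hk, one_mul]⟩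
  inv_mem' := fun {a} ha =>
    ⟨fun l hl => by rw [MonoidHom.inv_apply, ha.1 l hl, inv_one],
     fun k hk => by rw [MonoidHom.inv_apply, ha.2 k hk, inv_one]⟩

theorem mem_Lam {L : Subgroup K} {ρ : K →* Matrix n n ℂ} {μ : K →* ℂˣ} :
    μ ∈ Lam L ρ ↔ (∀ l ∈ L, μ l = 1) ∧ ∀ k, (ρ k).trace ≠ 0 → μ k = 1 := Iff.rfl

/-- `X` is an eigen matrix for `μ`. -/
def IsEig (ρ : K →* Matrix n n ℂ) (μ : K →* ℂˣ) (X : Matrix n n ℂ) : Prop :=
  ∀ k, ρ k * X = (μ k : ℂ) • (X * ρ k)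

variable {ρ : K →* Matrix n n ℂ} {μ ν : K →* ℂˣ} {X Y : Matrix n n ℂ}

theorem IsEig.mul (hX : IsEig ρ μ X) (hY : IsEig ρ ν Y) : IsEig ρ (μ * ν) (X * Y) := by
  intro k
  rw [← Matrix.mul_assoc, hX k, Matrix.smul_mul, Matrix.mul_assoc, hY k, Matrix.mul_smul,
    smul_smul, MonoidHom.mul_apply, Units.val_mul, Matrix.mul_assoc]

theorem IsEig.smul (hX : IsEig ρ μ X) (c : ℂ) : IsEig ρ μ (c • X) := by
  intro k
  rw [Matrix.mul_smul, hX k, Matrix.smul_mul, smul_comm]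

theorem isEig_one : IsEig ρ 1 (1 : Matrix n n ℂ) := by intro k; simp

theorem IsEig.pow (hX : IsEig ρ μ X) : ∀ j : ℕ, IsEig ρ (μ ^ j) (X ^ j)
  | 0 => by rw [pow_zero μ, pow_zero X]; exact isEig_one
  | j + 1 => by rw [pow_succ μ, pow_succ X]; exact (hX.pow j).mul hX

theorem IsEig.commute_of_mem (hX : IsEig ρ μ X) {k : K} (hk : μ k = 1) : ρ k * X = X * ρ k := by
  rw [hX k, hk, Units.val_one, one_smul]

theorem IsEig.isUnit (hρ : IsIrrRep ρ) (hX : IsEig ρ μ X) (h0 : X ≠ 0) : IsUnit X := by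
  classical
  rw [← Matrix.mulVec_injective_iff_isUnit]
  suffices h : ∀ v, X *ᵥ v = 0 → v = 0 by
    intro v w hvw
    have := h (v - w) (by rw [Matrix.mulVec_sub, hvw, sub_self])
    exact sub_eq_zero.1 this
  intro v hv
  by_contra hv0
  apply h0
  let S : Submodule ℂ (Matrix n n ℂ) :=
    { carrier := {Z | X *ᵥ (Z *ᵥ v) = 0}
      zero_mem' := by simp
      add_mem' := fun {a b} ha hb => by
        simp only [Set.mem_setOf_eq] at ha hb ⊢
        rw [Matrix.add_mulVec, Matrix.mulVec_add, ha, hb, add_zero]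
      smul_mem' := fun c a ha => by
        simp only [Set.mem_setOf_eq] at ha ⊢
        rw [Matrix.smul_mulVec, Matrix.mulVec_smul, ha, smul_zero] }
  have hS : ∀ Z, Z ∈ S := by
    intro Z
    rw [← hρ.expand Z]
    refine S.smul_mem _ (S.sum_mem fun k _ => S.smul_mem _ ?_)
    show X *ᵥ (ρ k *ᵥ v) = 0
    have h1 : (μ k : ℂ) • (X *ᵥ (ρ k *ᵥ v)) = 0 := by
      rw [Matrix.mulVec_mulVec, ← Matrix.smul_mulVec, ← hX k, ← Matrix.mulVec_mulVec, hv,
        Matrix.mulVec_zero]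
    exact (smul_eq_zero.1 h1).resolve_left (Units.ne_zero _)
  obtain ⟨j, hj⟩ : ∃ j, v j ≠ 0 := Function.ne_iff.1 hv0
  ext a b
  have h1 : X *ᵥ (Matrix.single b j (1 : ℂ) *ᵥ v) = 0 := hS (Matrix.single b j (1 : ℂ))
  have h2 := congrFun h1 a
  simp [Matrix.mulVec, dotProduct, Matrix.single, ite_and] at h2
  simpa using h2.resolve_right hj

theorem IsEig.mem_Lam (hρ : IsIrrRep ρ) {L : Subgroup K} (hμ : μ ∈ charOver L)
    (hX : IsEig ρ μ X) (h0 : X ≠ 0) : μ ∈ Lam L ρ := by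
  refine ⟨hμ, fun k hk => ?_⟩
  obtain ⟨u, rfl⟩ := hX.isUnit hρ h0
  have h2 : ρ k = (μ k : ℂ) • ((u : Matrix n n ℂ) * ρ k * (↑u⁻¹ : Matrix n n ℂ)) := by
    rw [← Matrix.smul_mul, ← hX k, Units.mul_inv_cancel_right]
  have h1 := congrArg Matrix.trace h2
  rw [Matrix.trace_smul, Matrix.trace_units_conj, smul_eq_mul] at h1
  exact Units.ext ((mul_eq_right₀ hk).1 h1.symm)

theorem exists_eig (hρ : IsIrrRep ρ) {L : Subgroup K} (hμ : μ ∈ Lam L ρ) :
    ∃ X, X ≠ 0 ∧ IsEig ρ μ X := by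
  have h : avg ρ ρ μ⁻¹ ≠ 0 := by
    intro h0
    have h1 := avg_finrank ρ ρ μ⁻¹
    rw [trace_avg, h0, LinearMap.range_zero, finrank_bot, Nat.cast_zero] at h1
    have h2 : ∑ k : K, ((μ⁻¹ k : ℂˣ) : ℂ) * ((ρ k).trace * (ρ k⁻¹).trace) =
        (Nat.card K : ℂ) := by
      rw [show (Nat.card K : ℂ) = _ from hρ.symm]
      refine Finset.sum_congr rfl fun k _ => ?_
      rcases eq_or_ne (ρ k).trace 0 with hk | hk
      · simp [hk]
      · rw [(inv_mem hμ).2 k hk, Units.val_one, one_mul]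
    rw [h2, inv_mul_cancel₀ (Nat.cast_ne_zero.2 Nat.card_pos.ne')] at h1
    exact one_ne_zero h1.symm
  obtain ⟨Z, hZ⟩ := not_forall.1 (fun hall => h (LinearMap.ext hall))
  refine ⟨avg ρ ρ μ⁻¹ Z, hZ, fun k => ?_⟩
  conv_rhs => rw [← avg_shift ρ ρ μ⁻¹ k Z]
  rw [Matrix.smul_mul, smul_smul, MonoidHom.inv_apply, Units.val_inv_eq_inv_val,
    mul_inv_cancel₀ (Units.ne_zero _), one_smul, Matrix.mul_assoc, rep_inv_mul, Matrix.mul_one]

theorem IsEig.exists_smul (hρ : IsIrrRep ρ) (hX : IsEig ρ μ X) (hX0 : X ≠ 0)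
    (hY : IsEig ρ μ Y) : ∃ c : ℂ, Y = c • X := by
  obtain ⟨u, hu⟩ := hX.isUnit hρ hX0
  subst hu
  have hui : ∀ k, ρ k * (↑u⁻¹ : Matrix n n ℂ) = (μ k : ℂ)⁻¹ • ((↑u⁻¹ : Matrix n n ℂ) * ρ k) := by
    intro k
    calc ρ k * (↑u⁻¹ : Matrix n n ℂ)
        = (μ k : ℂ)⁻¹ • ((↑u⁻¹ : Matrix n n ℂ) * ((μ k : ℂ) • ((u : Matrix n n ℂ) * ρ k)) * (↑u⁻¹ : Matrix n n ℂ)) := by
          rw [Matrix.mul_smul, Matrix.smul_mul, smul_smul, inv_mul_cancel₀ (Units.ne_zero _),
            one_smul, Units.inv_mul_cancel_left]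
      _ = (μ k : ℂ)⁻¹ • ((↑u⁻¹ : Matrix n n ℂ) * ρ k) := by
          rw [← hX k, ← Matrix.mul_assoc, Units.mul_inv_cancel_right]
  obtain ⟨c, hc⟩ := hρ.exists_scalar ((↑u⁻¹ : Matrix n n ℂ) * Y) fun k => by
    rw [← Matrix.mul_assoc, hui, Matrix.smul_mul, Matrix.mul_assoc, hY k, Matrix.mul_smul,
      smul_smul, inv_mul_cancel₀ (Units.ne_zero _), one_smul, Matrix.mul_assoc]
  refine ⟨c, ?_⟩
  rw [← Units.mul_inv_cancel_left u Y, hc, Matrix.mul_smul, Matrix.mul_one]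

theorem eq_one_of_isEig_smul_one (hρ : IsIrrRep ρ) {c : ℂ} (hc : c ≠ 0)
    (h : IsEig ρ μ (c • (1 : Matrix n n ℂ))) : μ = 1 := by
  haveI := hρ.nonempty
  refine MonoidHom.ext fun k => Units.ext ?_
  have h1 := h k
  rw [Matrix.mul_smul, Matrix.smul_mul, Matrix.mul_one, Matrix.one_mul, smul_comm] at h1
  have h2 : ρ k = (μ k : ℂ) • ρ k := smul_right_injective _ hc h1
  have h3 : ((μ k : ℂ) - 1) • ρ k = 0 := by rw [sub_smul, one_smul, ← h2, sub_self]
  rcases smul_eq_zero.1 h3 with h4 | h4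
  · simpa [sub_eq_zero] using h4
  · have h5 := rep_mul_inv ρ k
    rw [h4, Matrix.zero_mul] at h5
    exact absurd h5 zero_ne_one

theorem exists_char_ne_one {L : Subgroup K} [L.Normal]
    (hab : ∀ a b : K, a * b * a⁻¹ * b⁻¹ ∈ L) {k : K} (hk : k ∉ L) :
    ∃ μ ∈ charOver L, μ k ≠ 1 := by
  letI : CommGroup (K ⧸ L) :=
    { (inferInstance : Group (K ⧸ L)) with
      mul_comm := by
        intro x y
        obtain ⟨a, rfl⟩ := QuotientGroup.mk_surjective x
        obtain ⟨b, rfl⟩ := QuotientGroup.mk_surjective y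
        rw [← QuotientGroup.mk_mul, ← QuotientGroup.mk_mul, QuotientGroup.eq]
        have h : (a * b)⁻¹ * (b * a) = b⁻¹ * a⁻¹ * (b⁻¹)⁻¹ * (a⁻¹)⁻¹ := by group
        rw [h]
        exact hab _ _ }
  obtain ⟨ξ, hξ⟩ := CommGroup.exists_apply_ne_one_of_hasEnoughRootsOfUnity (K ⧸ L) ℂ
    (a := (k : K ⧸ L)) (fun h => hk ((QuotientGroup.eq_one_iff k).1 h))
  refine ⟨ξ.comp (QuotientGroup.mk' L), fun l hl => ?_, hξ⟩
  rw [MonoidHom.comp_apply, QuotientGroup.mk'_apply, (QuotientGroup.eq_one_iff l).2 hl, map_one]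

theorem sum_charOver {L : Subgroup K} [L.Normal] (hab : ∀ a b : K, a * b * a⁻¹ * b⁻¹ ∈ L)
    [Fintype (charOver L)] [DecidablePred (· ∈ L)] (k : K) :
    ∑ μ : charOver L, ((μ.1 k : ℂˣ) : ℂ) = if k ∈ L then (Nat.card (charOver L) : ℂ) else 0 := by
  split_ifs with hk
  · rw [Finset.sum_congr rfl (fun (μ : charOver L) _ => by rw [μ.2 k hk, Units.val_one]),
      Finset.sum_const, Finset.card_univ, nsmul_one, Nat.card_eq_fintype_card]
  · obtain ⟨ν, hν, hne⟩ := exists_char_ne_one hab hk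
    set S := ∑ μ : charOver L, ((μ.1 k : ℂˣ) : ℂ) with hS
    have h1 : (ν k : ℂ) * S = S := by
      rw [hS, Finset.mul_sum]
      refine Fintype.sum_equiv (Equiv.mulLeft ⟨ν, hν⟩) _ _ fun μ => ?_
      simp
    have h2 : ((ν k : ℂ) - 1) * S = 0 := by rw [sub_mul, h1, one_mul, sub_self]
    exact (mul_eq_zero.1 h2).resolve_left (fun h => hne (Units.ext (by simpa [sub_eq_zero] using h)))

instance charOver_finite (L : Subgroup K) : Finite (charOver L) := inferInstance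

/-- What commutes with `ρ` on `L` is a combination of eigen matrices. -/
theorem commutant_induction (hρ : IsIrrRep ρ) {L : Subgroup K} [L.Normal]
    (hab : ∀ a b : K, a * b * a⁻¹ * b⁻¹ ∈ L) (P : Submodule ℂ (Matrix n n ℂ))
    (hP : ∀ μ ∈ Lam L ρ, ∀ X, IsEig ρ μ X → X ∈ P)
    (Z : Matrix n n ℂ) (hZ : ∀ l ∈ L, ρ l * Z = Z * ρ l) : Z ∈ P := by
  classical
  haveI := Fintype.ofFinite (charOver L)
  haveI := Fintype.ofFinite L
  have hmem : ∀ μ : charOver L, avg ρ ρ μ.1⁻¹ Z ∈ P := by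
    intro μ
    rcases eq_or_ne (avg ρ ρ μ.1⁻¹ Z) 0 with h | h
    · rw [h]; exact P.zero_mem
    have he : IsEig ρ μ.1 (avg ρ ρ μ.1⁻¹ Z) := by
      intro k
      conv_rhs => rw [← avg_shift ρ ρ μ.1⁻¹ k Z]
      rw [Matrix.smul_mul, smul_smul, MonoidHom.inv_apply, Units.val_inv_eq_inv_val,
        mul_inv_cancel₀ (Units.ne_zero _), one_smul, Matrix.mul_assoc, rep_inv_mul, Matrix.mul_one]
    exact hP _ (he.mem_Lam hρ μ.2 h) _ he
  have hsum : ∑ μ : charOver L, avg ρ ρ μ.1⁻¹ Z =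
      ((Nat.card K : ℂ)⁻¹ * Nat.card (charOver L) * (Finset.univ.filter (· ∈ L)).card) • Z := by
    rw [Fintype.sum_equiv (Equiv.inv (charOver L)) (fun μ => avg ρ ρ μ.1⁻¹ Z)
      (fun μ => avg ρ ρ μ.1 Z) (fun μ => by simp)]
    simp only [avg_apply]
    rw [← Finset.smul_sum, Finset.sum_comm]
    simp only [← Finset.sum_smul, sum_charOver hab, ite_smul, zero_smul]
    rw [← Finset.sum_filter, mul_assoc, ← smul_smul]
    congr 1
    rw [mul_comm, ← smul_smul, Nat.cast_smul_eq_nsmul ℂ (Finset.card _), ← Finset.sum_const]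
    refine Finset.sum_congr rfl fun l hl => ?_
    rw [hZ l (Finset.mem_filter.1 hl).2, Matrix.mul_assoc, rep_mul_inv, Matrix.mul_one]
  have hne : ((Nat.card K : ℂ)⁻¹ * Nat.card (charOver L) *
      (Finset.univ.filter (· ∈ L)).card) ≠ 0 := by
    refine mul_ne_zero (mul_ne_zero (inv_ne_zero ?_) ?_) ?_
    · exact Nat.cast_ne_zero.2 Nat.card_pos.ne'
    · exact Nat.cast_ne_zero.2 Nat.card_pos.ne'
    · exact Nat.cast_ne_zero.2 (Finset.card_ne_zero.2 ⟨1, by simp⟩)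
  have := P.smul_mem (((Nat.card K : ℂ)⁻¹ * Nat.card (charOver L) *
      (Finset.univ.filter (· ∈ L)).card))⁻¹ (P.sum_mem (t := Finset.univ) fun μ _ => hmem μ)
  rwa [hsum, smul_smul, inv_mul_cancel₀ hne, one_smul] at this

variable {f : Type*} [Fintype f] [DecidableEq f]

/-- The centre of the commutant of an isotypic representation is scalar. -/
theorem scalar_of_commutes {L : Type*} [Group L] [Fintype L] {σ : L →* Matrix n n ℂ}
    {σ0 : L →* Matrix f f ℂ} (h0 : IsIrrRep σ0) (hσ : IsMultiple σ σ0)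
    (x : Matrix n n ℂ) (hx : ∀ l, σ l * x = x * σ l)
    (hc : ∀ Z, (∀ l, σ l * Z = Z * σ l) → x * Z = Z * x) : ∃ c : ℂ, x = c • 1 := by
  haveI := h0.nonempty
  have hcomm : ∀ (Y : Matrix n n ℂ) l, σ l * avg σ σ 1 Y = avg σ σ 1 Y * σ l := by
    intro Y l
    conv_rhs => rw [← avg_shift σ σ 1 l Y]
    rw [MonoidHom.one_apply, Units.val_one, one_smul, Matrix.mul_assoc _ (σ l⁻¹), rep_inv_mul,
      Matrix.mul_one]
  have key : ∀ i a b j, ∑ l : L, (x * σ l) i a * σ l⁻¹ b j =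
      ∑ l : L, σ l i a * (σ l⁻¹ * x) b j := by
    intro i a b j
    have h := hc _ (hcomm (Matrix.single a b (1 : ℂ)))
    rw [avg_apply, Matrix.mul_smul, Matrix.smul_mul, Matrix.mul_sum, Matrix.sum_mul] at h
    have h2 := congrArg (fun M : Matrix n n ℂ => M i j)
      (smul_right_injective _ (inv_ne_zero (Nat.cast_ne_zero.2 (Nat.card_pos (α := L)).ne')) h)
    simp only [MonoidHom.one_apply, Units.val_one, one_smul, Matrix.sum_apply] at h2
    have e1 : ∀ (A B : Matrix n n ℂ), (A * Matrix.single a b (1 : ℂ) * B) i j = A i a * B b j := by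
      intro A B
      simp [Matrix.mul_apply, Matrix.single, ite_and]
    simpa only [← Matrix.mul_assoc, e1, Matrix.mul_assoc (σ _ * Matrix.single a b (1 : ℂ))] using h2
  have hW : x * (∑ l : L, (σ l⁻¹).trace • σ l) = ∑ l : L, (σ l⁻¹ * x).trace • σ l := by
    ext i a
    simp only [Matrix.mul_sum, Matrix.mul_smul, Matrix.sum_apply, Matrix.smul_apply, smul_eq_mul,
      Matrix.trace, Matrix.diag_apply, Finset.sum_mul]
    rw [Finset.sum_comm, Finset.sum_comm (γ := L)]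
    refine Finset.sum_congr rfl fun b _ => ?_
    simp only [mul_comm (σ _⁻¹ b b), mul_comm ((σ _⁻¹ * x) b b)]
    exact key i a b b
  obtain ⟨c, hcc⟩ := hσ
  have hone := phiLin_one h0 ⟨c, hcc⟩
  have hc0 : c ≠ 0 ∨ IsEmpty n := by
    rcases isEmpty_or_nonempty n with h | h
    · exact Or.inr h
    · left
      rintro rfl
      have h1 := hcc 1
      rw [map_one, Matrix.trace_one, zero_mul] at h1
      exact Fintype.card_ne_zero (α := n) (by exact_mod_cast h1)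
  rcases hc0 with hc0 | hemp
  swap
  · exact ⟨0, Matrix.ext fun i => isEmptyElim i⟩
  have hval : ∀ l, phi h0 ⟨c, hcc⟩ (σ0 l) = σ l := phi_rep h0 _
  have hx2 : ∃ X0, x = phi h0 ⟨c, hcc⟩ X0 := by
    refine ⟨((Fintype.card f : ℂ) / Nat.card L * c⁻¹) •
      ∑ l : L, (σ l⁻¹ * x).trace • σ0 l, ?_⟩
    rw [map_smul, map_sum]
    simp only [map_smul, hval]
    rw [← hW, ← Matrix.mul_smul]
    conv_lhs => rw [← Matrix.mul_one x, ← hone, phiLin_apply]
    congr 1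
    rw [Finset.smul_sum, Finset.smul_sum]
    refine Finset.sum_congr rfl fun l _ => ?_
    rw [Matrix.one_mul, hcc, smul_smul, smul_smul]
    congr 1
    field_simp
  obtain ⟨X0, rfl⟩ := hx2
  refine ⟨X0.trace / Fintype.card f, ?_⟩
  have h1 : avg σ σ 1 (phi h0 ⟨c, hcc⟩ X0) = phi h0 ⟨c, hcc⟩ X0 :=
    avg_eq_of_fixed _ _ _ _ fun l => by
      rw [MonoidHom.one_apply, Units.val_one, one_smul, hx, Matrix.mul_assoc, rep_mul_inv,
        Matrix.mul_one]
  have h2 : avg σ σ 1 (phi h0 ⟨c, hcc⟩ X0) = phi h0 ⟨c, hcc⟩ (avg σ0 σ0 1 X0) := by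
    simp only [avg_apply, map_smul, map_sum, map_mul, hval]
  rw [← h1, h2, h0.avg_one, map_smul, map_one]

/-- Pull a linear character along an automorphism. -/
def pullChar (σ : MulAut K) : (K →* ℂˣ) →* (K →* ℂˣ) where
  toFun μ := μ.comp σ.symm.toMonoidHom
  map_one' := MonoidHom.ext fun _ => rfl
  map_mul' _ _ := MonoidHom.ext fun _ => rfl

@[simp] theorem pullChar_apply (σ : MulAut K) (μ : K →* ℂˣ) (k : K) :
    pullChar σ μ k = μ (σ.symm k) := rfl

theorem pullChar_mul (σ τ : MulAut K) (μ : K →* ℂˣ) :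
    pullChar (σ * τ) μ = pullChar σ (pullChar τ μ) := MonoidHom.ext fun _ => rfl

theorem pullChar_one (μ : K →* ℂˣ) : pullChar 1 μ = μ := MonoidHom.ext fun _ => rfl

variable (ρ) in
/-- The automorphisms preserving `L` and the character of `ρ`. -/
def stabAut (L : Subgroup K) : Subgroup (MulAut K) where
  carrier := {σ | (∀ k, k ∈ L ↔ σ k ∈ L) ∧ ∀ k, (ρ (σ k)).trace = (ρ k).trace}
  one_mem' := ⟨fun _ => Iff.rfl, fun _ => rfl⟩
  mul_mem' := fun {a b} ha hb =>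
    ⟨fun k => (hb.1 k).trans (ha.1 _), fun k => (ha.2 _).trans (hb.2 k)⟩
  inv_mem' := fun {a} ha => ⟨fun k => by
      rw [ha.1 (a⁻¹ k), MulAut.apply_inv_self], fun k => by
      rw [← ha.2 (a⁻¹ k), MulAut.apply_inv_self]⟩

variable {L : Subgroup K}

theorem pullChar_mem {σ : MulAut K} (hσ : σ ∈ stabAut ρ L) (hμ : μ ∈ Lam L ρ) :
    pullChar σ μ ∈ Lam L ρ := by
  have h := inv_mem hσ
  refine ⟨fun l hl => hμ.1 _ ((h.1 l).1 hl), fun k hk => hμ.2 _ ?_⟩
  show (ρ (σ⁻¹ k)).trace ≠ 0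
  rw [h.2 k]
  exact hk

theorem isMultiple_comp {σ : MulAut K} (hσ : σ ∈ stabAut ρ L) :
    IsMultiple (ρ.comp σ.toMonoidHom) ρ :=
  ⟨1, fun k => by rw [one_mul]; exact hσ.2 k⟩

/-- The algebra automorphism attached to a group automorphism. -/
noncomputable def alpha (hρ : IsIrrRep ρ) (σ : stabAut ρ L) :
    Matrix n n ℂ →ₐ[ℂ] Matrix n n ℂ :=
  phi hρ (isMultiple_comp σ.2)

theorem alpha_rep (hρ : IsIrrRep ρ) (σ : stabAut ρ L) (k : K) :
    alpha hρ σ (ρ k) = ρ (σ.1 k) := phi_rep hρ _ k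

theorem alpha_mul (hρ : IsIrrRep ρ) (σ τ : stabAut ρ L) (X : Matrix n n ℂ) :
    alpha hρ (σ * τ) X = alpha hρ σ (alpha hρ τ X) := by
  refine AlgHom.congr_fun (algHom_ext hρ (f := alpha hρ (σ * τ))
    (g := (alpha hρ σ).comp (alpha hρ τ)) fun k => ?_) X
  rw [AlgHom.comp_apply, alpha_rep, alpha_rep, alpha_rep]
  rfl

theorem alpha_one (hρ : IsIrrRep ρ) (X : Matrix n n ℂ) :
    alpha hρ (1 : stabAut ρ L) X = X := by
  refine AlgHom.congr_fun (algHom_ext hρ (f := alpha hρ (1 : stabAut ρ L))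
    (g := AlgHom.id ℂ _) fun k => ?_) X
  rw [alpha_rep]
  rfl

theorem alpha_isEig (hρ : IsIrrRep ρ) (σ : stabAut ρ L) (hX : IsEig ρ μ X) :
    IsEig ρ (pullChar σ.1 μ) (alpha hρ σ X) := by
  intro k
  have h := congrArg (alpha hρ σ) (hX (σ.1.symm k))
  rw [map_mul, map_smul, map_mul, alpha_rep, MulEquiv.apply_symm_apply] at h
  exact h

theorem alpha_injective (hρ : IsIrrRep ρ) (σ : stabAut ρ L) :
    Function.Injective (alpha hρ σ) :=
  Function.LeftInverse.injective (g := alpha hρ σ⁻¹) fun X => by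
    rw [← alpha_mul, inv_mul_cancel, alpha_one]

/-- An inner automorphism acts by conjugation. -/
theorem alpha_inner (hρ : IsIrrRep ρ) (σ : stabAut ρ L) (x : K)
    (hx : ∀ k, σ.1 k = x * k * x⁻¹) (X : Matrix n n ℂ) :
    alpha hρ σ X = ρ x * X * ρ x⁻¹ := by
  refine LinearMap.congr_fun (phiLin_ext hρ (f := (alpha hρ σ).toLinearMap)
    (g := conjMap (ρ x) (ρ x⁻¹)) fun k => ?_) X
  rw [AlgHom.toLinearMap_apply, alpha_rep, hx, conjMap_apply, map_mul, map_mul]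

end CfsgLib.OddSection
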