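import Cfsg.Agent.OddSection.Gauss
import Cfsg.Agent.Glauberman.Corr
import Cfsg.Agent.Chars.Induced.Basic
import Mathlib.Analysis.SpecialFunctions.Pow.Real

/-!
# The parity character

With `H` a complement of `K` modulo `L` fixing the section, the function
`δ h = |Λ|^(-1/2) ∑ tr (F u * σ h)` is twice a character minus the restriction of `χ`, has norm
one and positive degree: it is the only constituent of odd multiplicity of the restriction.
-/

set_option autoImplicit false

namespace CfsgLib.OddSection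

open Cfsg Matrix

variable {G : Type*} [Group G] [Fintype G] {K : Subgroup G} [K.Normal] [Fintype K]
  {n : Type*} [Fintype n] [DecidableEq n]
  {ρ : K →* Matrix n n ℂ} {L : Subgroup K}

omit [Fintype G] [K.Normal] in
theorem char_conj_self (μ : K →* ℂˣ) (x k : K) : μ (x * k * x⁻¹) = μ k := by
  rw [map_mul, map_mul, map_inv, mul_inv_cancel_comm]

theorem cj_symm (hG : IsInvar G ρ L) (g : G) (k : K) :
    (((cj hG g).1.symm k : K) : G) = g⁻¹ * k * g := by
  have h := cj_coe hG g ((cj hG g).1.symm k)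
  rw [MulEquiv.apply_symm_apply] at h
  rw [h]
  group

theorem lamMap_cj_coe (hG : IsInvar G ρ L) (x : K) (μ : Lam L ρ) :
    lamMap (cj hG (x : G)) μ = μ := by
  refine Subtype.ext (MonoidHom.ext fun k => ?_)
  show μ.1 ((cj hG (x : G)).1.symm k) = μ.1 k
  have h : (cj hG (x : G)).1.symm k = x⁻¹ * k * (x⁻¹)⁻¹ :=
    Subtype.ext (by rw [cj_symm, inv_inv]; rfl)
  rw [h, char_conj_self]

theorem card_ker_disp_mul (hG : IsInvar G ρ L) (x : K) (g : G) :
    Nat.card (disp hG ((x : G) * g)).ker = Nat.card (disp hG g).ker :=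
  Nat.card_congr (Equiv.subtypeEquivRight fun w => by
    rw [mem_ker_disp, mem_ker_disp, map_mul, lamMap_mul, lamMap_cj_coe])

omit [Fintype G] in
theorem trace_rep_conj {ι : Type*} [Fintype ι] [DecidableEq ι] (τ : G →* Matrix ι ι ℂ) (x y : G) :
    (τ (x * y * x⁻¹)).trace = (τ y).trace := by
  rw [map_mul, map_mul, Matrix.trace_mul_cycle, ← map_mul, inv_mul_cancel, map_one, Matrix.one_mul]

variable [L.Normal] [Fintype L]

theorem card_charOver_mul (hab : ∀ a b : K, a * b * a⁻¹ * b⁻¹ ∈ L) :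
    (Nat.card (charOver L) : ℂ) * Nat.card L = Nat.card K := by
  classical
  haveI := Fintype.ofFinite (charOver L)
  have h : ∑ μ : charOver L, ∑ k : K, ((μ.1 k : ℂˣ) : ℂ) =
      (Nat.card (charOver L) : ℂ) * Nat.card L := by
    rw [Finset.sum_comm]
    simp only [sum_charOver hab]
    rw [← Finset.sum_filter, Finset.sum_const, nsmul_eq_mul, mul_comm,
      Nat.card_eq_fintype_card (α := L), Fintype.card_subtype]
  rw [← h, Finset.sum_eq_single (1 : charOver L)]
  · simp [Nat.card_eq_fintype_card]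
  · intro μ _ hμ
    obtain ⟨y, hy⟩ : ∃ y, μ.1 y ≠ 1 := by
      by_contra hcon
      push Not at hcon
      exact hμ (Subtype.ext (MonoidHom.ext hcon))
    have h1 : (μ.1 y : ℂ) * ∑ k : K, ((μ.1 k : ℂˣ) : ℂ) = ∑ k : K, ((μ.1 k : ℂˣ) : ℂ) := by
      rw [Finset.mul_sum]
      exact Fintype.sum_equiv (Equiv.mulLeft y) _ _ fun k => by simp
    have h2 : ((μ.1 y : ℂ) - 1) * ∑ k : K, ((μ.1 k : ℂˣ) : ℂ) = 0 := by
      rw [sub_mul, h1, one_mul, sub_self]
    exact (mul_eq_zero.1 h2).resolve_left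
      (fun h3 => hy (Units.ext (by simpa [sub_eq_zero] using h3)))
  · exact fun h => absurd (Finset.mem_univ _) h

variable (hS : Setup L ρ) (hG : IsInvar G ρ L) (s : Section hS)
  {m m' : Type*} [Fintype m] [DecidableEq m] [Fintype m'] [DecidableEq m']
  (σ : G →* Matrix m m ℂ) (hσ : IsMultiple (σ.comp K.subtype) ρ)
  (σ' : G →* Matrix m' m' ℂ) (hσ' : IsMultiple (σ'.comp K.subtype) ρ)

include s hσ hσ' in
/-- The coset identity. -/
theorem coset_identity {g : G} (hg : cj hG g ∈ s.equiv) :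
    (Nat.card K : ℂ) * ∑ l : L, (σ (((l : K) : G) * g)).trace * (σ' (((l : K) : G) * g)⁻¹).trace =
      (Nat.card L : ℂ) * Nat.card (disp hG g).ker *
        ∑ k : K, (σ ((k : G) * g)).trace * (σ' ((k : G) * g)⁻¹).trace := by
  classical
  haveI := Fintype.ofFinite (charOver L)
  set F : K → ℂ := fun k => (σ ((k : G) * g)).trace * (σ' ((k : G) * g)⁻¹).trace with hF
  have hI : ∀ μ : charOver L, ∑ k : K, ((μ.1 k : ℂˣ) : ℂ) * F k =
      if (∃ h : μ.1 ∈ Lam L ρ, lamMap (cj hG g) ⟨μ.1, h⟩ = ⟨μ.1, h⟩) then ∑ k : K, F k else 0 := by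
    intro μ
    by_cases hfix : pullChar (cj hG g).1 μ.1 = μ.1
    · by_cases hmem : μ.1 ∈ Lam L ρ
      · rw [if_pos ⟨hmem, Subtype.ext hfix⟩]
        have hw : lamMap (cj hG g) ⟨μ.1, hmem⟩ = ⟨μ.1, hmem⟩ := Subtype.ext hfix
        refine Finset.sum_congr rfl fun k _ => ?_
        have h1 : σ ((k : G) * g) * opF hS s σ hσ ⟨μ.1, hmem⟩ =
            (μ.1 k : ℂ) • (opF hS s σ hσ ⟨μ.1, hmem⟩ * σ ((k : G) * g)) := by
          rw [map_mul, Matrix.mul_assoc, opF_conj hS hG s σ hσ hg, hw, ← Matrix.mul_assoc,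
            opF_rep, Matrix.smul_mul, Matrix.mul_assoc]
        have h2 : (σ ((k : G) * g)).trace = (μ.1 k : ℂ) * (σ ((k : G) * g)).trace := by
          conv_lhs => rw [← Matrix.mul_one (σ ((k : G) * g)),
            ← opF_mul_inv hS s σ hσ ⟨μ.1, hmem⟩, ← Matrix.mul_assoc, h1, Matrix.smul_mul,
            Matrix.trace_smul, trace_opF_conj, smul_eq_mul]
        simp only [hF]
        conv_rhs => rw [h2]
        ring
      · rw [if_neg (fun h => hmem h.1)]
        have h0 : avg ρ ρ μ.1 = 0 := by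
          refine LinearMap.ext fun Z => by_contra fun hne => hmem ?_
          have he : IsEig ρ μ.1⁻¹ (avg ρ ρ μ.1 Z) := by
            intro k
            conv_rhs => rw [← avg_shift ρ ρ μ.1 k Z]
            rw [Matrix.smul_mul, smul_smul, MonoidHom.inv_apply, Units.val_inv_eq_inv_val,
              inv_mul_cancel₀ (Units.ne_zero _), one_smul, Matrix.mul_assoc, rep_inv_mul,
              Matrix.mul_one]
          have h := inv_mem (he.mem_Lam hS.irr (inv_mem μ.2) hne)
          rwa [show (μ.1⁻¹)⁻¹ = μ.1 from MonoidHom.ext fun k => inv_inv _] at h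
        have h1 := trace_avg ρ ρ μ.1
        rw [h0, map_zero, eq_comm, mul_eq_zero] at h1
        have h2 := h1.resolve_left (inv_ne_zero (Nat.cast_ne_zero.2 Nat.card_pos.ne'))
        obtain ⟨c, hc⟩ := hσ
        obtain ⟨c', hc'⟩ := hσ'
        have h3 : avg (σ.comp K.subtype) (σ'.comp K.subtype) μ.1 = 0 := by
          apply avg_eq_zero
          simp only [hc, hc']
          have : ∀ k : K, ((μ.1 k : ℂˣ) : ℂ) * (c * (ρ k).trace * (c' * (ρ k⁻¹).trace)) =
              c * c' * (((μ.1 k : ℂˣ) : ℂ) * ((ρ k).trace * (ρ k⁻¹).trace)) := fun k => by ring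
          simp only [this, ← Finset.mul_sum, h2, mul_zero]
        have h4 : LinearMap.trace ℂ _ ((avg (σ.comp K.subtype) (σ'.comp K.subtype) μ.1).comp
            (conjMap (σ g) (σ' g⁻¹))) = 0 := by
          rw [h3, LinearMap.zero_comp, map_zero]
        have h5 : (avg (σ.comp K.subtype) (σ'.comp K.subtype) μ.1).comp (conjMap (σ g) (σ' g⁻¹)) =
            (Nat.card K : ℂ)⁻¹ • ∑ k : K, ((μ.1 k : ℂˣ) : ℂ) •
              conjMap (σ ((k : G) * g)) (σ' ((k : G) * g)⁻¹) := by
          refine LinearMap.ext fun X => ?_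
          simp only [LinearMap.comp_apply, avg_apply, LinearMap.smul_apply, LinearMap.sum_apply,
            conjMap_apply, MonoidHom.comp_apply, Subgroup.coe_subtype, Subgroup.coe_inv,
            _root_.mul_inv_rev, map_mul, Matrix.mul_assoc]
        rw [h5, map_smul, map_sum, smul_eq_mul, mul_eq_zero] at h4
        have h6 := h4.resolve_left (inv_ne_zero (Nat.cast_ne_zero.2 Nat.card_pos.ne'))
        simpa [trace_conjMap, hF] using h6
    · rw [if_neg (fun h => hfix (congrArg Subtype.val h.2))]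
      obtain ⟨y, hy⟩ : ∃ y, μ.1 ((cj hG g).1.symm y) ≠ μ.1 y := by
        by_contra hcon
        push Not at hcon
        exact hfix (MonoidHom.ext hcon)
      set x := (cj hG g).1.symm y with hx
      set z := x * ((cj hG g).1 x)⁻¹ with hz
      have hμz : μ.1 z ≠ 1 := by
        rw [hz, hx, MulEquiv.apply_symm_apply, map_mul, map_inv, Ne, mul_inv_eq_one]
        exact hy
      have hbij : ∀ k : K, F (x * k * ((cj hG g).1 x)⁻¹) = F k := by
        intro k
        have h1 : ((x * k * ((cj hG g).1 x)⁻¹ : K) : G) * g =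
            (x : G) * ((k : G) * g) * (x : G)⁻¹ := by
          simp only [Subgroup.coe_mul, Subgroup.coe_inv, cj_coe]
          group
        simp only [hF, h1]
        rw [show ((x : G) * ((k : G) * g) * (x : G)⁻¹)⁻¹ =
          (x : G) * ((k : G) * g)⁻¹ * (x : G)⁻¹ by group, trace_rep_conj, trace_rep_conj]
      have h1 : (μ.1 z : ℂ) * ∑ k : K, ((μ.1 k : ℂˣ) : ℂ) * F k =
          ∑ k : K, ((μ.1 k : ℂˣ) : ℂ) * F k := by
        rw [Finset.mul_sum]
        refine Fintype.sum_equiv ((Equiv.mulLeft x).trans (Equiv.mulRight ((cj hG g).1 x)⁻¹)) _ _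
          fun k => ?_
        rw [Equiv.trans_apply, Equiv.coe_mulLeft, Equiv.coe_mulRight, hbij, ← mul_assoc,
          ← Units.val_mul, hz]
        congr 2
        rw [map_mul, map_mul, map_mul, mul_right_comm]
      have h2 : ((μ.1 z : ℂ) - 1) * ∑ k : K, ((μ.1 k : ℂˣ) : ℂ) * F k = 0 := by
        rw [sub_mul, h1, one_mul, sub_self]
      exact (mul_eq_zero.1 h2).resolve_left
        (fun h3 => hμz (Units.ext (by simpa [sub_eq_zero] using h3)))
  have htot : ∑ μ : charOver L, ∑ k : K, ((μ.1 k : ℂˣ) : ℂ) * F k =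
      (Nat.card (charOver L) : ℂ) * ∑ l : L, F l := by
    rw [Finset.sum_comm]
    simp only [← Finset.sum_mul, sum_charOver hS.comm, ite_mul, zero_mul]
    rw [← Finset.sum_filter, Finset.mul_sum]
    exact Finset.sum_subtype (Finset.univ.filter (· ∈ L)) (by simp) _
  simp only [hI] at htot
  rw [← Finset.sum_filter, Finset.sum_const, nsmul_eq_mul] at htot
  have hcard : (Finset.univ.filter fun μ : charOver L =>
      ∃ h : μ.1 ∈ Lam L ρ, lamMap (cj hG g) ⟨μ.1, h⟩ = ⟨μ.1, h⟩).card =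
      Nat.card (disp hG g).ker := by
    rw [← Fintype.card_subtype, ← Nat.card_eq_fintype_card]
    refine Nat.card_congr
      { toFun := fun μ => ⟨⟨μ.1.1, μ.2.1⟩, (mem_ker_disp hG g _).2 μ.2.2⟩
        invFun := fun w => ⟨⟨w.1.1, w.1.2.1⟩, ⟨w.1.2, (mem_ker_disp hG g _).1 w.2⟩⟩
        left_inv := fun μ => rfl
        right_inv := fun w => rfl }
  rw [hcard] at htot
  show (Nat.card K : ℂ) * ∑ l : L, F l = (Nat.card L : ℂ) * _ * ∑ k : K, F k
  rw [← card_charOver_mul (L := L) hS.comm, mul_comm _ (Nat.card L : ℂ), mul_assoc, ← htot,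
    ← mul_assoc]

variable [Fintype (Lam L ρ)]

/-- The parity function. -/
noncomputable def delta (g : G) : ℂ :=
  ((Real.sqrt (Nat.card (Lam L ρ)) : ℝ) : ℂ)⁻¹ * ∑ u : Lam L ρ, tr hS s σ hσ g u

omit [L.Normal] [Fintype L] in
theorem sqrt_sq :
    ((Real.sqrt (Nat.card (Lam L ρ)) : ℝ) : ℂ) * ((Real.sqrt (Nat.card (Lam L ρ)) : ℝ) : ℂ) =
      (Nat.card (Lam L ρ) : ℂ) := by
  rw [← Complex.ofReal_mul, Real.mul_self_sqrt (Nat.cast_nonneg _), Complex.ofReal_natCast]

theorem delta_mul_conj {g : G} (hg : cj hG g ∈ s.equiv) (hodd : Odd (orderOf g)) :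
    delta hS s σ hσ g * (starRingEnd ℂ) (delta hS s σ' hσ' g) * Nat.card (disp hG g).ker =
      (σ g).trace * (starRingEnd ℂ) (σ' g).trace := by
  have hk : (Nat.card (disp hG g).ker : ℂ) ≠ 0 := Nat.cast_ne_zero.2 Nat.card_pos.ne'
  have hN : (Nat.card (Lam L ρ) : ℂ) ≠ 0 := Nat.cast_ne_zero.2 Nat.card_pos.ne'
  have h1 := card_ker_mul_sum_tr hS hG s σ hσ hg
  have h2 := congrArg (starRingEnd ℂ) (card_ker_mul_sum_tr hS hG s σ' hσ' hg)
  simp only [map_mul, map_natCast] at h2
  have h3 := gauss_mul_conj hS hG hodd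
  simp only [delta, map_mul, map_inv₀, Complex.conj_ofReal]
  have hsq := sqrt_sq (L := L) (ρ := ρ)
  have hs : ((Real.sqrt (Nat.card (Lam L ρ)) : ℝ) : ℂ) ≠ 0 := fun h0 => by
    rw [h0, zero_mul] at hsq
    exact hN hsq.symm
  set r := ((Real.sqrt (Nat.card (Lam L ρ)) : ℝ) : ℂ)
  set A := ∑ u : Lam L ρ, tr hS s σ hσ g u
  set B := (starRingEnd ℂ) (∑ u : Lam L ρ, tr hS s σ' hσ' g u)
  set c := (Nat.card (disp hG g).ker : ℂ)
  have h4 : (c * A) * (c * B) =
      r * r * c * ((σ g).trace * (starRingEnd ℂ) (σ' g).trace) := by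
    rw [h1, h2, hsq, ← h3]; ring
  field_simp at h4 ⊢
  linear_combination h4

variable (H : Subgroup G) [Fintype H]

theorem inner_delta (hodd : Odd (Nat.card G)) (hHL : ∀ k : K, (k : G) ∈ H ↔ k ∈ L)
    (hKH : ∀ g : G, ∃ k ∈ K, ∃ h ∈ H, k * h = g) (heq : ∀ h ∈ H, cj hG h ∈ s.equiv)
    (hconj : ∀ g : G, (starRingEnd ℂ) (σ' g).trace = (σ' g⁻¹).trace) :
    classInner (fun h : H => delta hS s σ hσ (h : G)) (fun h : H => delta hS s σ' hσ' (h : G)) =
      classInner (fun g => (σ g).trace) (fun g => (σ' g).trace) := by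
  classical
  set F : G → ℂ := fun g => (σ g).trace * (σ' g⁻¹).trace with hF
  have hoddg : ∀ g : G, Odd (orderOf g) := fun g => hodd.of_dvd_nat (orderOf_dvd_natCard g)
  have h1 : ∀ h : H, delta hS s σ hσ (h : G) * (starRingEnd ℂ) (delta hS s σ' hσ' (h : G)) =
      F h / Nat.card (disp hG (h : G)).ker := by
    intro h
    rw [eq_div_iff (Nat.cast_ne_zero.2 Nat.card_pos.ne'),
      delta_mul_conj hS hG s σ hσ σ' hσ' (heq _ h.2) (hoddg _), hconj]
  have hL : (Nat.card L : ℂ) ≠ 0 := Nat.cast_ne_zero.2 Nat.card_pos.ne'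
  have hK : (Nat.card K : ℂ) ≠ 0 := Nat.cast_ne_zero.2 Nat.card_pos.ne'
  have hLH : ∀ l : L, ((l : K) : G) ∈ H := fun l => (hHL _).2 l.2
  have havg : (Nat.card L : ℂ) * ∑ h : H, F h / Nat.card (disp hG (h : G)).ker =
      ∑ h : H, ∑ l : L, F (((l : K) : G) * h) / Nat.card (disp hG (h : G)).ker := by
    rw [Finset.sum_comm, Nat.card_eq_fintype_card, ← Finset.card_univ, ← nsmul_eq_mul,
      ← Finset.sum_const]
    refine Finset.sum_congr rfl fun l _ => ?_
    refine (Fintype.sum_equiv (Equiv.mulLeft ⟨((l : K) : G), hLH l⟩) _ _ fun h => ?_).symm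
    rw [Equiv.coe_mulLeft]
    show _ = F (((l : K) : G) * h) / Nat.card (disp hG (((l : K) : G) * h)).ker
    rw [card_ker_disp_mul]
  have hcos : ∀ h : H, ∑ l : L, F (((l : K) : G) * h) / Nat.card (disp hG (h : G)).ker =
      (Nat.card L : ℂ) / Nat.card K * ∑ k : K, F ((k : G) * h) := by
    intro h
    rw [← Finset.sum_div, div_mul_eq_mul_div, div_eq_div_iff (Nat.cast_ne_zero.2 Nat.card_pos.ne') hK]
    have := coset_identity hS hG s σ hσ σ' hσ' (heq _ h.2)
    simp only [hF]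
    linear_combination this
  have hfib0 : ∀ F' : G → ℂ, ∑ h : H, ∑ k : K, F' ((k : G) * h) = (Nat.card L : ℂ) * ∑ g : G, F' g := by
    intro F'
    rw [← Fintype.sum_prod_type (f := fun p : H × K => F' ((p.2 : G) * p.1)),
      ← Finset.sum_fiberwise (s := Finset.univ) (g := fun p : H × K => (p.2 : G) * p.1),
      Finset.mul_sum]
    refine Finset.sum_congr rfl fun g _ => ?_
    rw [Finset.sum_congr rfl (g := fun _ => F' g)
      (fun p hp => by rw [(Finset.mem_filter.1 hp).2]), Finset.sum_const, nsmul_eq_mul]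
    congr 2
    obtain ⟨k0, hk0, h0, hh0, rfl⟩ := hKH g
    rw [Nat.card_eq_fintype_card, ← Finset.card_univ]
    symm
    refine Finset.card_bij
      (fun l _ => ((⟨(((l : K) : G))⁻¹ * h0, mul_mem (inv_mem (hLH l)) hh0⟩ : H),
        (⟨k0, hk0⟩ : K) * (l : K))) ?_ ?_ ?_
    · intro l _
      refine Finset.mem_filter.2 ⟨Finset.mem_univ _, ?_⟩
      show k0 * ((l : K) : G) * ((((l : K) : G))⁻¹ * h0) = k0 * h0
      group
    · intro a _ b _ hab
      exact Subtype.ext (mul_left_cancel (congrArg Prod.snd hab))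
    · rintro ⟨h, k⟩ hp
      have he : (k : G) * h = k0 * h0 := (Finset.mem_filter.1 hp).2
      have hl : (⟨k0, hk0⟩ : K)⁻¹ * k ∈ L := by
        rw [← hHL]
        have : k0⁻¹ * (k : G) = h0 * (h : G)⁻¹ := by
          rw [inv_mul_eq_iff_eq_mul, ← mul_assoc, ← he, mul_inv_cancel_right]
        show k0⁻¹ * (k : G) ∈ H
        rw [this]
        exact mul_mem hh0 (inv_mem h.2)
      refine ⟨⟨_, hl⟩, Finset.mem_univ _, Prod.ext (Subtype.ext ?_) (mul_inv_cancel_left _ _)⟩
      show (k0⁻¹ * (k : G))⁻¹ * h0 = h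
      rw [_root_.mul_inv_rev, inv_inv, mul_assoc, inv_mul_eq_iff_eq_mul]
      exact he.symm
  have hfib := hfib0 F
  have hcardG : (Nat.card K : ℂ) * Nat.card H = Nat.card L * Nat.card G := by
    simpa [Finset.sum_const, Nat.card_eq_fintype_card, mul_comm] using hfib0 fun _ => 1
  simp only [classInner, h1, hconj]
  simp only [hcos, ← Finset.mul_sum, hfib] at havg
  show (Nat.card H : ℂ)⁻¹ * _ = (Nat.card G : ℂ)⁻¹ * ∑ g : G, F g
  have hH : (Nat.card H : ℂ) ≠ 0 := Nat.cast_ne_zero.2 Nat.card_pos.ne'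
  have hGc : (Nat.card G : ℂ) ≠ 0 := Nat.cast_ne_zero.2 Nat.card_pos.ne'
  field_simp at havg ⊢
  refine mul_left_cancel₀ hK ?_
  linear_combination (Nat.card G : ℂ) * havg - (∑ g : G, F g) * hcardG

end CfsgLib.OddSection
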