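import Cfsg.Agent.OddSection.Core
import Cfsg.Agent.Coprime.Glauberman
import Mathlib.GroupTheory.SemidirectProduct

/-!
# Fixed constituents and the Clifford reduction
-/

set_option autoImplicit false

namespace CfsgLib.OddSection

open Cfsg CfsgLib.Glauberman CfsgLib.Chars.Induced

universe u v

variable {G : Type u} [Group G] [Fintype G] {A : Type v} [Group A] [Fintype A]
  {act : A →* MulAut G} {L : Subgroup G}

/-- The automorphisms of `L` induced by the semidirect product. -/
noncomputable def autL (act : A →* MulAut G) (L : Subgroup G) [L.Normal]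
    (hL : ∀ a, ∀ l ∈ L, act a l ∈ L) : G ⋊[act] A →* MulAut L :=
  SemidirectProduct.lift MulAut.conjNormal (autRes act L hL) fun a => MonoidHom.ext fun g =>
    MulEquiv.ext fun l => Subtype.ext (by
      show ((MulAut.conjNormal (act a g) l : L) : G) =
        act a ((MulAut.conjNormal g ((autRes act L hL a)⁻¹ l) : L) : G)
      rw [MulAut.conjNormal_apply, MulAut.conjNormal_apply, map_mul, map_mul, map_inv]
      congr 2
      rw [← map_inv (autRes act L hL)]
      show (l : G) = act a (act a⁻¹ (l : G))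
      rw [← MulAut.mul_apply, ← map_mul, mul_inv_cancel, map_one]
      rfl)

variable [L.Normal] (hL : ∀ a, ∀ l ∈ L, act a l ∈ L)

/-- The action of the semidirect product on the characters of `L`. -/
@[reducible] noncomputable def sdAction : MulAction (G ⋊[act] A) (IrrCharacter L) where
  smul x φ := irrPull (autL act L hL x⁻¹) φ
  one_smul φ := Subtype.ext (funext fun l => by
    show (φ : L → ℂ) (autL act L hL (1 : G ⋊[act] A)⁻¹ l) = (φ : L → ℂ) l
    rw [inv_one, map_one]; rfl)
  mul_smul x y φ := Subtype.ext (funext fun l => by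
    show (φ : L → ℂ) (autL act L hL (x * y)⁻¹ l) =
      (φ : L → ℂ) (autL act L hL y⁻¹ (autL act L hL x⁻¹ l))
    rw [_root_.mul_inv_rev, map_mul]; rfl)

theorem sdAction_inl (g : G) (φ : IrrCharacter L) :
    (sdAction (act := act) hL).smul (SemidirectProduct.inl g) φ = conjIrr g φ := by
  refine Subtype.ext (funext fun l => ?_)
  show (φ : L → ℂ) (autL act L hL (SemidirectProduct.inl g)⁻¹ l) = _
  rw [← map_inv, autL, SemidirectProduct.lift_inl, conjIrr_coe, conjFun_apply]
  refine congrArg _ (Subtype.ext ?_)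
  show ((MulAut.conjNormal g⁻¹ l : L) : G) = g⁻¹ * (l : G) * g
  rw [MulAut.conjNormal_apply, inv_inv]

theorem sdAction_inr_iff (φ : IrrCharacter L) :
    (∀ a, (sdAction (act := act) hL).smul (SemidirectProduct.inr a) φ = φ) ↔
      ∀ a, Fixd (act a) L (φ : L → ℂ) := by
  have hval : ∀ a (l : L), ((sdAction (act := act) hL).smul (SemidirectProduct.inr a) φ : L → ℂ) l =
      (φ : L → ℂ) (autRes act L hL a⁻¹ l) := by
    intro a l
    show (φ : L → ℂ) (autL act L hL (SemidirectProduct.inr a)⁻¹ l) = _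
    rw [← map_inv, autL, SemidirectProduct.lift_inr]
  constructor
  · intro h a n n' hn
    have h1 := congrArg (fun w : IrrCharacter L => (w : L → ℂ) n) (h a⁻¹)
    simp only [hval, inv_inv] at h1
    rw [← h1]
    exact congrArg _ (Subtype.ext hn)
  · intro h a
    refine Subtype.ext (funext fun l => ?_)
    rw [hval]
    exact h a⁻¹ l _ rfl

theorem inl_inr_normalizer (N : Subgroup G) (hN : ∀ a, ∀ g ∈ N, act a g ∈ N) :
    (SemidirectProduct.inr : A →* G ⋊[act] A).range ≤
      Subgroup.normalizer ((N.map SemidirectProduct.inl : Subgroup (G ⋊[act] A)) : Set (G ⋊[act] A)) := by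
  refine CfsgLib.Coprime.le_normalizer_of_conj_mem ?_
  rintro _ ⟨a, rfl⟩ _ ⟨g, hg, rfl⟩
  refine ⟨act a g, hN a g hg, ?_⟩
  rw [SemidirectProduct.inl_aut, map_inv]

theorem inl_inr_coprime (N : Subgroup G) (hcop : (Nat.card A).Coprime (Nat.card G)) :
    (Nat.card (SemidirectProduct.inr : A →* G ⋊[act] A).range).Coprime
      (Nat.card (N.map SemidirectProduct.inl : Subgroup (G ⋊[act] A))) := by
  rw [Subgroup.card_map_of_injective SemidirectProduct.inl_injective,
    ← Nat.card_congr (MonoidHom.ofInjective SemidirectProduct.inr_injective).toEquiv]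
  exact hcop.coprime_dvd_right (Subgroup.card_subgroup_dvd_card N)

theorem mem_centralizer_inr {g : G}
    (h : (SemidirectProduct.inl g : G ⋊[act] A) ∈
      Subgroup.centralizer ((SemidirectProduct.inr : A →* G ⋊[act] A).range : Set (G ⋊[act] A)))
    (a : A) : act a g = g := by
  have h1 := Subgroup.mem_centralizer_iff.1 h (SemidirectProduct.inr a) ⟨a, rfl⟩
  apply SemidirectProduct.inl_injective (φ := act)
  rw [SemidirectProduct.inl_aut, map_inv, h1, mul_inv_cancel_right]

instance : Finite (G ⋊[act] A) := Finite.of_equiv _ SemidirectProduct.equivProd.symm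

/-- A fixed element in a fixed coset. -/
theorem exists_fixed_mem_coset (hcop : (Nat.card A).Coprime (Nat.card G))
    (hsol : Group.IsSolvable G) (N : Subgroup G) (hN : ∀ a, ∀ g ∈ N, act a g ∈ N) (g : G)
    (hg : ∀ a, g⁻¹ * act a g ∈ N) : ∃ n ∈ N, ∀ a, act a (g * n) = g * n := by
  have hsN : Group.IsSolvable N :=
    haveI := hsol
    Group.isSolvable_of_isSolvable_injective N.subtype_injective
  refine Exists.elim (CfsgLib.Coprime.exists_fixed_coset_of_isSolvable_right
    (g := (SemidirectProduct.inl g : G ⋊[act] A)) (inl_inr_normalizer N hN) (inl_inr_coprime N hcop)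
    (CfsgLib.Coprime.isSolvable_map _ N hsN) ?_) ?_
  · rintro _ ⟨a, rfl⟩
    refine ⟨g⁻¹ * act a g, hg a, ?_⟩
    rw [map_mul, map_inv, SemidirectProduct.inl_aut, map_inv]
  · rintro _ ⟨⟨n, hn, rfl⟩, hfix⟩
    rw [← map_mul] at hfix
    exact ⟨n, hn, mem_centralizer_inr hfix⟩

/-- A fixed character in a transitive invariant set. -/
theorem exists_fixed_char (hcop : (Nat.card A).Coprime (Nat.card G)) (hsol : Group.IsSolvable G)
    (N : Subgroup G) (hN : ∀ a, ∀ g ∈ N, act a g ∈ N) (S : Set (IrrCharacter L)) (hne : S.Nonempty)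
    (hSA : ∀ a, ∀ φ ∈ S, irrPull (autRes act L hL a) φ ∈ S)
    (hSN : ∀ g ∈ N, ∀ φ ∈ S, conjIrr g φ ∈ S)
    (htr : ∀ φ ∈ S, ∀ φ' ∈ S, ∃ g ∈ N, conjIrr g φ = φ') :
    ∃ φ ∈ S, ∀ a, Fixd (act a) L (φ : L → ℂ) := by
  letI := sdAction (act := act) hL
  have hsN : Group.IsSolvable N :=
    haveI := hsol
    Group.isSolvable_of_isSolvable_injective N.subtype_injective
  refine Exists.elim (CfsgLib.Coprime.exists_fixed_of_isSolvable_right (α := IrrCharacter L)
    (inl_inr_normalizer N hN) (inl_inr_coprime N hcop)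
    (CfsgLib.Coprime.isSolvable_map _ N hsN) hne ?_ ?_ ?_) ?_
  · rintro _ ⟨a, rfl⟩ φ hφ
    have h := hSA a⁻¹ φ hφ
    rwa [show irrPull (autRes act L hL a⁻¹) φ = (SemidirectProduct.inr a : G ⋊[act] A) • φ from by
      show _ = irrPull (autL act L hL (SemidirectProduct.inr a)⁻¹) φ
      rw [← map_inv, autL, SemidirectProduct.lift_inr]] at h
  · rintro _ ⟨g, hg, rfl⟩ φ hφ
    show (sdAction (act := act) hL).smul (SemidirectProduct.inl g) φ ∈ S
    rw [sdAction_inl]
    exact hSN g hg φ hφ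
  · intro φ hφ φ' hφ'
    obtain ⟨g, hg, h⟩ := htr φ hφ φ' hφ'
    exact ⟨SemidirectProduct.inl g, ⟨g, hg, rfl⟩, (sdAction_inl hL g φ).trans h⟩
  · rintro φ ⟨hφ, hfix⟩
    exact ⟨φ, hφ, (sdAction_inr_iff hL φ).1 fun a => hfix _ ⟨a, rfl⟩⟩

include hL in
/-- Fixed conjugate characters are conjugate by a fixed element. -/
theorem exists_fixed_conjugator (hcop : (Nat.card A).Coprime (Nat.card G))
    (hsol : Group.IsSolvable G) {φ φ' : IrrCharacter L} (hφ : ∀ a, Fixd (act a) L (φ : L → ℂ))
    (hφ' : ∀ a, Fixd (act a) L (φ' : L → ℂ)) {g : G} (hg : conjIrr g φ = φ') :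
    ∃ c, (∀ a, act a c = c) ∧ conjIrr c φ = φ' := by
  letI := sdAction (act := act) hL
  obtain ⟨x, hx, hxφ⟩ := CfsgLib.Coprime.exists_centralizer_smul_eq (α := IrrCharacter L)
    (A := (SemidirectProduct.inr : A →* G ⋊[act] A).range) (G := (⊤ : Subgroup G).map SemidirectProduct.inl)
    (inl_inr_normalizer ⊤ fun _ _ _ => Subgroup.mem_top _) (inl_inr_coprime ⊤ hcop)
    (Or.inr (CfsgLib.Coprime.isSolvable_map _ _ (haveI := hsol; inferInstance)))
    (s := φ) (t := φ')
    (by rintro _ ⟨a, rfl⟩; exact (sdAction_inr_iff hL φ).2 hφ a)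
    (by rintro _ ⟨a, rfl⟩; exact (sdAction_inr_iff hL φ').2 hφ' a)
    ⟨SemidirectProduct.inl g, ⟨g, Subgroup.mem_top g, rfl⟩, (sdAction_inl hL g φ).trans hg⟩
  obtain ⟨⟨c, -, rfl⟩, hcC⟩ := Subgroup.mem_inf.1 hx
  exact ⟨c, mem_centralizer_inr hcC, (sdAction_inl hL c φ).symm.trans hxφ⟩

end CfsgLib.OddSection
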