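import Cfsg.Agent.OddSection.Constituent
import Cfsg.Agent.Glauberman.NormalSylow.Prep
import Cfsg.Agent.McKay.Basic

/-!
# The invariant character of `K` over an invariant character of `L`
-/

set_option autoImplicit false

namespace CfsgLib.OddSection

open Cfsg CfsgLib.Glauberman

/-- `f` is fixed by the automorphism `σ` of the ambient group. -/
def Fixd {G : Type*} [Group G] (σ : G ≃* G) (N : Subgroup G) (f : N → ℂ) : Prop :=
  ∀ n n' : N, (n' : G) = σ n → f n' = f n

/-- `f` is fixed by conjugation. -/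
def ConjFixd {G : Type*} [Group G] (N : Subgroup G) (f : N → ℂ) : Prop :=
  ∀ g : G, Fixd (MulAut.conj g) N f

/-- Multiplication by a linear character. -/
noncomputable def twist {K : Type*} [Group K] (μ : K →* ℂˣ) (θ : IrrCharacter K) :
    IrrCharacter K :=
  ⟨_, CfsgLib.Chars.isIrrCharacter_linear_mul θ.2 μ⟩

@[simp] theorem twist_apply {K : Type*} [Group K] (μ : K →* ℂˣ) (θ : IrrCharacter K) (k : K) :
    (twist μ θ : K → ℂ) k = (μ k : ℂ) * (θ : K → ℂ) k := rfl

theorem twist_twist {K : Type*} [Group K] (μ ν : K →* ℂˣ) (θ : IrrCharacter K) :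
    twist μ (twist ν θ) = twist (μ * ν) θ :=
  Subtype.ext (funext fun k => by simp [mul_assoc])

theorem twist_one {K : Type*} [Group K] (θ : IrrCharacter K) : twist 1 θ = θ :=
  Subtype.ext (funext fun k => by simp)

/-- Restriction over an invariant character is a multiple of it. -/
theorem restrict_hom {X : Type*} [Group X] [Fintype X] {Y : Type*} [Group Y] [Fintype Y]
    (e : Y →* X) (he : Function.Injective e) (hn : e.range.Normal) (χ : IrrCharacter X)
    (ν : IrrCharacter Y)
    (hinv : ∀ (x : X) (y y' : Y), e y' = x * e y * x⁻¹ → (ν : Y → ℂ) y' = (ν : Y → ℂ) y)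
    (hover : mult e χ ν ≠ 0) (y : Y) :
    (χ : X → ℂ) (e y) = (mult e χ ν : ℂ) * (ν : Y → ℂ) y := by
  classical
  haveI := hn
  haveI := Fintype.ofFinite e.range
  rw [restrict_eq_sum e χ y, Finset.sum_eq_single ν]
  · intro β _ hβ
    suffices h : mult e χ β = 0 by rw [h, Nat.cast_zero, zero_mul]
    by_contra hm
    apply hβ
    let w : Y ≃* e.range := MonoidHom.ofInjective he
    have key : ∀ b : IrrCharacter Y,
        mult e.range.subtype χ (irrPull w.symm b) = mult e χ b := fun b => by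
      have h := NormalSylow.mult_comp_equiv e.range.subtype w χ (irrPull w.symm b)
      rw [show irrPull w (irrPull w.symm b) = b from Subtype.ext (funext fun z => by simp)] at h
      rw [← h]
      rfl
    obtain ⟨x, hx⟩ := NormalSylow.mem_conjOrbit χ (irrPull w.symm ν) (irrPull w.symm β)
      (by rwa [key]) (by rwa [key])
    refine Subtype.ext (funext fun z => ?_)
    have h1 := congrArg (fun c : IrrCharacter e.range => (c : e.range → ℂ) (w z)) hx
    simp only [CfsgLib.Chars.Induced.conjIrr_coe, irrPull_apply, MulEquiv.symm_apply_apply,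
      CfsgLib.Chars.Induced.conjFun_apply] at h1
    rw [← h1]
    refine hinv x⁻¹ z _ ?_
    have hco : ∀ a : e.range, e (w.symm a) = (a : X) := fun a =>
      MonoidHom.apply_ofInjective_symm he a
    rw [hco]
    show x⁻¹ * ((w z : e.range) : X) * x = _
    rw [inv_inv]
    rfl
  · exact fun h => absurd (Finset.mem_univ _) h

theorem sum_mult_degree {X : Type*} [Group X] [Fintype X] {Y : Type*} [Group Y] [Fintype Y]
    (e : Y →* X) (he : Function.Injective e) (ν : IrrCharacter Y) :
    ∃ χ : IrrCharacter X, mult e χ ν ≠ 0 := by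
  classical
  by_contra hcon
  push Not at hcon
  have h : ∑ χ : IrrCharacter X, (χ : X → ℂ) 1 *
      classInner (fun y => (χ : X → ℂ) (e y)) (ν : Y → ℂ) = 0 := by
    refine Finset.sum_eq_zero fun χ _ => ?_
    rw [classInner_eq_mult, hcon, Nat.cast_zero, mul_zero]
  simp only [classInner, Finset.mul_sum] at h
  rw [Finset.sum_comm] at h
  simp only [← mul_assoc, mul_comm _ ((Nat.card Y : ℂ)⁻¹)] at h
  simp only [mul_assoc, ← Finset.mul_sum] at h
  simp only [← mul_assoc ((_ : X → ℂ) 1), ← Finset.sum_mul, CfsgLib.Chars.sum_irr_map_one_mul,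
    map_eq_one_iff e he, ite_mul, zero_mul, Finset.sum_ite_eq', Finset.mem_univ, if_true,
    mul_eq_zero, inv_eq_zero, Nat.cast_eq_zero, Nat.card_pos.ne', false_or] at h
  rw [starRingEnd_apply, star_eq_zero] at h
  exact CfsgLib.Chars.map_one_ne_zero ν h

/-- A coprime group acting on a torsor of an abelian group of exponent `N`. -/
theorem exists_unique_fixed_torsor {M : Type*} [CommGroup M] {α : Type*} [MulAction M α]
    {A : Type*} [Group A] [Fintype A] (Λ : Subgroup M) (pc : A → M →* M)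
    (hpc : ∀ a, ∀ x ∈ Λ, pc a x ∈ Λ) (hpcmul : ∀ a b x, pc a (pc b x) = pc (b * a) x)
    (rot : A → α → α) (hrot : ∀ a x p, rot a (x • p) = pc a x • rot a p)
    (hrot2 : ∀ a b p, rot b (rot a p) = rot (a * b) p) (S : Set α) (p0 : α) (hp0 : p0 ∈ S)
    (hS : ∀ a, ∀ p ∈ S, rot a p ∈ S) (hSΛ : ∀ x ∈ Λ, ∀ p ∈ S, x • p ∈ S)
    (htr : ∀ p ∈ S, ∀ q ∈ S, ∃ x ∈ Λ, x • p = q) {N : ℕ} (hN : ∀ x ∈ Λ, x ^ N = 1)
    (hcop : (Nat.card A).Coprime N) (hfix : ∀ x ∈ Λ, (∀ a, pc a x = x) → x = 1) :
    ∃ p ∈ S, (∀ a, rot a p = p) ∧ ∀ q ∈ S, (∀ a, rot a q = q) → q = p := by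
  classical
  have hmod : ∀ x ∈ Λ, ∀ i j : ℕ, i ≡ j [MOD N] → x ^ i = x ^ j := fun x hx i j hij =>
    pow_eq_pow_iff_modEq.2 (hij.of_dvd (orderOf_dvd_of_pow_eq_one (hN x hx)))
  obtain ⟨m, hm⟩ := CfsgLib.Coprime.exists_mul_modEq_one hcop
  choose ν hνmem hν using fun a => htr p0 hp0 (rot a p0) (hS a p0 hp0)
  let St : Subgroup M := MulAction.stabilizer M p0
  let π : M →* M ⧸ St := QuotientGroup.mk' St
  have hcong : ∀ x y : M, π x = π y ↔ x • p0 = y • p0 := by
    intro x y
    rw [QuotientGroup.mk'_apply, QuotientGroup.mk'_apply, QuotientGroup.eq,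
      MulAction.mem_stabilizer_iff, mul_smul, inv_smul_eq_iff]
    exact eq_comm
  have hcoc : ∀ a b, π (ν (b * a)) = π (pc a (ν b) * ν a) := by
    intro a b
    rw [hcong, hν, ← hrot2, ← hν b, hrot, ← hν a, smul_smul]
  set P := ∏ b : A, ν b with hP
  have hPmem : P ∈ Λ := prod_mem fun b _ => hνmem b
  have hPeq : ∀ a, π P = π (pc a P * ν a ^ Fintype.card A) := by
    intro a
    conv_lhs => rw [hP, map_prod, ← Equiv.prod_comp (Equiv.mulRight a)]
    simp only [Equiv.coe_mulRight, hcoc]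
    rw [map_mul, map_pow, hP, map_prod, map_prod, ← Finset.card_univ, ← Finset.prod_const,
      ← Finset.prod_mul_distrib]
    simp only [map_mul]
  have hR : ∀ a, rot a (P ^ m • p0) = P ^ m • p0 := by
    intro a
    rw [hrot, ← hν a, smul_smul, ← hcong, map_mul, map_pow, map_pow π P m, hPeq a, map_mul,
      mul_pow]
    congr 1
    rw [← map_pow π, ← pow_mul, ← Nat.card_eq_fintype_card, mul_comm (Nat.card A),
      hmod _ (hνmem a) _ 1 hm, pow_one]
  refine ⟨P ^ m • p0, hSΛ _ (pow_mem hPmem m) _ hp0, hR, fun q hq hqfix => ?_⟩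
  set p := P ^ m • p0 with hp
  obtain ⟨x, hx, hxq⟩ := htr p (hSΛ _ (pow_mem hPmem m) _ hp0) q hq
  have ha : ∀ a, x⁻¹ * pc a x ∈ MulAction.stabilizer M p := by
    intro a
    have h1 := hqfix a
    rw [← hxq, hrot, hR] at h1
    rw [MulAction.mem_stabilizer_iff, mul_smul, h1, inv_smul_smul]
  have hprodfix : ∏ a : A, pc a x = 1 := by
    refine hfix _ (prod_mem fun a _ => hpc a x hx) fun b => ?_
    rw [map_prod]
    refine Fintype.prod_equiv (Equiv.mulRight b) _ _ fun a => ?_
    rw [Equiv.coe_mulRight, hpcmul]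
  have h1 : (x ^ Fintype.card A)⁻¹ ∈ MulAction.stabilizer M p := by
    have h2 : ∏ a : A, (x⁻¹ * pc a x) ∈ MulAction.stabilizer M p := prod_mem fun a _ => ha a
    rwa [Finset.prod_mul_distrib, hprodfix, mul_one, Finset.prod_const, Finset.card_univ,
      inv_pow] at h2
  have h2 : x ∈ MulAction.stabilizer M p := by
    have h3 := pow_mem (inv_mem h1) m
    rw [inv_inv, ← pow_mul, ← Nat.card_eq_fintype_card, mul_comm, hmod x hx _ 1 hm, pow_one] at h3
    exact h3
  rw [← hxq]
  exact MulAction.mem_stabilizer_iff.1 h2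

variable {K : Type*} [Group K] [Fintype K] {L : Subgroup K} [L.Normal] [Fintype L]

/-- Two characters over one character of `L` differ by a twist. -/
theorem exists_twist (hab : ∀ a b : K, a * b * a⁻¹ * b⁻¹ ∈ L) (θ θ' : IrrCharacter K)
    (φ : IrrCharacter L) (h : mult L.subtype θ φ ≠ 0) (h' : mult L.subtype θ' φ ≠ 0) :
    ∃ μ ∈ charOver L, twist μ θ = θ' := by
  classical
  haveI := Fintype.ofFinite (charOver L)
  by_contra hcon
  push Not at hcon
  have h0 : ∑ μ : charOver L, classInner (twist μ.1 θ : K → ℂ) (θ' : K → ℂ) = 0 :=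
    Finset.sum_eq_zero fun μ _ => CfsgLib.Chars.classInner_of_ne (hcon _ μ.2)
  simp only [classInner, twist_apply] at h0
  rw [← Finset.mul_sum, Finset.sum_comm, mul_eq_zero] at h0
  replace h0 := h0.resolve_left (inv_ne_zero (Nat.cast_ne_zero.2 Nat.card_pos.ne'))
  simp only [mul_assoc, ← Finset.sum_mul, sum_charOver hab, ite_mul, zero_mul] at h0
  rw [← Finset.sum_filter, ← Finset.mul_sum, mul_eq_zero] at h0
  replace h0 := h0.resolve_left (Nat.cast_ne_zero.2 Nat.card_pos.ne')
  have hA : ∀ l : L, (θ : K → ℂ) l * (starRingEnd ℂ) ((θ' : K → ℂ) l) =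
      (∑ β : IrrCharacter L, (mult L.subtype θ β : ℂ) * (β : L → ℂ) l) *
        (starRingEnd ℂ) ((θ' : K → ℂ) l) := by
    intro l
    rw [← restrict_eq_sum L.subtype θ l]
    rfl
  have h2 : classInner (fun l : L => (θ : K → ℂ) l) (fun l : L => (θ' : K → ℂ) l) = 0 := by
    rw [classInner, ← Finset.sum_subtype (Finset.univ.filter (· ∈ L)) (by simp)
      (fun k => (θ : K → ℂ) k * (starRingEnd ℂ) ((θ' : K → ℂ) k)), h0, mul_zero]
  rw [CfsgLib.Chars.classInner_eq_sum (CfsgLib.Chars.isClassFunction_of_isCharacter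
    (CfsgLib.Chars.isCharacter_restrict (CfsgLib.Chars.isCharacter_coe θ) L))] at h2
  have h3 : ((∑ β : IrrCharacter L, mult L.subtype θ β * mult L.subtype θ' β : ℕ) : ℂ) = 0 := by
    rw [← h2, Nat.cast_sum]
    refine Finset.sum_congr rfl fun β _ => ?_
    rw [Nat.cast_mul, ← classInner_eq_mult, ← classInner_eq_mult L.subtype θ']
    congr 1
    rw [show classInner (fun l : L => (θ' : K → ℂ) l) (β : L → ℂ) = (mult L.subtype θ' β : ℂ)
      from classInner_eq_mult L.subtype θ' β, map_natCast]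
    exact classInner_eq_mult L.subtype θ' β
  have h4 := (Finset.sum_eq_zero_iff.1 (by exact_mod_cast h3 :
    (∑ β : IrrCharacter L, mult L.subtype θ β * mult L.subtype θ' β) = 0)) φ (Finset.mem_univ _)
  exact (mul_eq_zero.1 h4).elim h h'

theorem mult_twist {μ : K →* ℂˣ} (hμ : μ ∈ charOver L) (θ : IrrCharacter K) (φ : IrrCharacter L) :
    mult L.subtype (twist μ θ) φ = mult L.subtype θ φ := by
  apply mult_eq_of_classInner_eq
  rw [← classInner_eq_mult]
  congr 1
  funext l
  show (twist μ θ : K → ℂ) (l : K) = (θ : K → ℂ) (l : K)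
  rw [twist_apply, hμ l l.2, Units.val_one, one_mul]

/-- A coprime group fixing no character of the section fixes exactly one character over an
invariant one. -/
theorem exists_unique_fixed {A : Type*} [Group A] [Fintype A] (act : A →* MulAut K)
    (hab : ∀ a b : K, a * b * a⁻¹ * b⁻¹ ∈ L) (hcop : (Nat.card A).Coprime L.index)
    (hL : ∀ a, ∀ l ∈ L, act a l ∈ L) (φ : IrrCharacter L)
    (hφ : ∀ a (l l' : L), (l' : K) = act a l → (φ : L → ℂ) l' = (φ : L → ℂ) l)
    (hfix : ∀ μ ∈ charOver L, (∀ a k, μ (act a k) = μ k) → μ = 1) :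
    ∃ θ : IrrCharacter K, (mult L.subtype θ φ ≠ 0 ∧ ∀ a k, (θ : K → ℂ) (act a k) = (θ : K → ℂ) k) ∧
      ∀ θ' : IrrCharacter K, mult L.subtype θ' φ ≠ 0 →
        (∀ a k, (θ' : K → ℂ) (act a k) = (θ' : K → ℂ) k) → θ' = θ := by
  classical
  obtain ⟨θ0, hθ0⟩ := sum_mult_degree L.subtype L.subtype_injective φ
  letI : MulAction (K →* ℂˣ) (IrrCharacter K) :=
    { smul := fun μ θ => twist μ θ
      one_smul := fun θ => twist_one θ
      mul_smul := fun μ ν θ => (twist_twist μ ν θ).symm }
  let pc : A → (K →* ℂˣ) →* (K →* ℂˣ) := fun a =>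
    { toFun := fun μ => μ.comp (act a).toMonoidHom
      map_one' := MonoidHom.ext fun _ => rfl
      map_mul' := fun _ _ => MonoidHom.ext fun _ => rfl }
  let rot : A → IrrCharacter K → IrrCharacter K := fun a θ => irrPull (act a) θ
  let lR : ∀ a : A, L ≃* L := fun a =>
    { toFun := fun l => ⟨act a l, hL a l l.2⟩
      invFun := fun l => ⟨act a⁻¹ l, hL a⁻¹ l l.2⟩
      left_inv := fun l => Subtype.ext (by
        show act a⁻¹ (act a l) = l
        rw [← MulAut.mul_apply, ← map_mul, inv_mul_cancel, map_one]; rfl)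
      right_inv := fun l => Subtype.ext (by
        show act a (act a⁻¹ l) = l
        rw [← MulAut.mul_apply, ← map_mul, mul_inv_cancel, map_one]; rfl)
      map_mul' := fun x y => Subtype.ext (map_mul (act a) _ _) }
  obtain ⟨θ, hθ, hfx, hu⟩ := exists_unique_fixed_torsor (charOver L) pc
    (fun a μ hμ l hl => hμ _ (hL a l hl))
    (fun a b μ => MonoidHom.ext fun k => by
      show μ (act b (act a k)) = μ (act (b * a) k)
      rw [map_mul]; rfl)
    rot (fun a μ θ => rfl)
    (fun a b θ => Subtype.ext (funext fun k => by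
      show (θ : K → ℂ) (act a (act b k)) = (θ : K → ℂ) (act (a * b) k)
      rw [map_mul]; rfl))
    {θ | mult L.subtype θ φ ≠ 0} θ0 hθ0
    (fun a θ h => by
      have h1 := mult_irrPull L.subtype (act a) (lR a) (fun c => rfl) θ φ
      rw [show irrPull (lR a) φ = φ from Subtype.ext (funext fun l => hφ a l _ rfl)] at h1
      show mult L.subtype (irrPull (act a) θ) φ ≠ 0
      rw [h1]
      exact h)
    (fun μ hμ θ h => by
      show mult L.subtype (twist μ θ) φ ≠ 0
      rw [mult_twist hμ]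
      exact h)
    (fun θ hθ θ' hθ' => exists_twist hab θ θ' φ hθ hθ') (N := L.index)
    (fun μ hμ => MonoidHom.ext fun k => by
      rw [MonoidHom.pow_apply, ← map_pow]
      exact hμ _ (L.pow_index_mem k))
    hcop (fun μ hμ h => hfix μ hμ fun a k => congrArg (fun c : K →* ℂˣ => c k) (h a))
  exact ⟨θ, ⟨hθ, fun a k => congrArg (fun c : IrrCharacter K => (c : K → ℂ) k) (hfx a)⟩,
    fun θ' h1 h2 => hu θ' h1 fun a => Subtype.ext (funext fun k => h2 a k)⟩

end CfsgLib.OddSection
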