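import Cfsg.Agent.OddSection.Ops
import Cfsg.Agent.Coprime.Glauberman
import Mathlib.Data.Nat.Choose.Basic

/-!
# The equivariant symmetric section

For an abelian section `K / L` of odd index the normalised eigen matrices carry an abelian group
law `X ∘ Y = γ⁻¹ X Y`, where `γ² = β` is the commutator pairing.  A coprime group `A` of
automorphisms without fixed points on `K / L` singles out one homomorphic section of it, and this
section is equivariant for every automorphism commuting with `A`.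
-/

set_option autoImplicit false

namespace CfsgLib.OddSection

open Matrix

variable {K : Type*} [Group K] [Fintype K] {n : Type*} [Fintype n] [DecidableEq n]
  {f : Type*} [Fintype f] [DecidableEq f]

/-- The standing hypotheses on the section. -/
structure Setup (L : Subgroup K) (ρ : K →* Matrix n n ℂ) : Prop where
  normal : L.Normal
  irr : IsIrrRep ρ
  comm : ∀ a b : K, a * b * a⁻¹ * b⁻¹ ∈ L
  odd : Odd L.index
  central : ∀ x : Matrix n n ℂ, (∀ l ∈ L, ρ l * x = x * ρ l) →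
    (∀ Z, (∀ l ∈ L, ρ l * Z = Z * ρ l) → x * Z = Z * x) → ∃ c : ℂ, x = c • 1

theorem setup_mk {L : Subgroup K} [L.Normal] [Fintype L] {ρ : K →* Matrix n n ℂ} (hρ : IsIrrRep ρ)
    (hab : ∀ a b : K, a * b * a⁻¹ * b⁻¹ ∈ L) (hodd : Odd L.index)
    {σ0 : L →* Matrix f f ℂ} (h0 : IsIrrRep σ0) (hφ : IsMultiple (ρ.comp L.subtype) σ0) :
    Setup L ρ :=
  { normal := inferInstance
    irr := hρ
    comm := hab
    odd := hodd
    central := fun x hx hc => scalar_of_commutes h0 hφ x (fun l => hx l l.2)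
      (fun Z hZ => hc Z fun l hl => hZ ⟨l, hl⟩) }

variable {L : Subgroup K} {ρ : K →* Matrix n n ℂ}

/-- A normalised eigen matrix. -/
def Nrm (L : Subgroup K) (ρ : K →* Matrix n n ℂ) (μ : K →* ℂˣ) (X : Matrix n n ℂ) : Prop :=
  IsEig ρ μ X ∧ X ^ L.index = 1

theorem char_pow_index (hS : Setup L ρ) (μ : Lam L ρ) : μ ^ L.index = 1 := by
  haveI := hS.normal
  refine Subtype.ext (MonoidHom.ext fun k => ?_)
  show (μ.1 ^ L.index) k = 1
  rw [MonoidHom.pow_apply, ← map_pow]
  exact μ.2.1 _ (L.pow_index_mem k)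

theorem eq_one_of_sq (hS : Setup L ρ) (μ : Lam L ρ) (h : μ ^ 2 = 1) : μ = 1 := by
  obtain ⟨t, ht⟩ := hS.odd
  have h1 := char_pow_index hS μ
  rwa [ht, pow_succ, pow_mul, h, one_pow, one_mul] at h1

theorem Nrm.ne_zero (hS : Setup L ρ) {μ : K →* ℂˣ} {X : Matrix n n ℂ} (h : Nrm L ρ μ X) :
    X ≠ 0 := by
  haveI := hS.irr.nonempty
  intro h0
  have h2 := h.2
  rw [h0, zero_pow (by obtain ⟨t, ht⟩ := hS.odd; omega)] at h2
  exact zero_ne_one h2

theorem smul_one_injective (hS : Setup L ρ) {a b : ℂ} {X : Matrix n n ℂ} (hX : X ≠ 0)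
    (h : a • X = b • X) : a = b := smul_left_injective ℂ hX h

theorem exists_nrm (hS : Setup L ρ) (μ : Lam L ρ) : ∃ X, Nrm L ρ μ.1 X := by
  obtain ⟨X, hX0, hX⟩ := exists_eig hS.irr μ.2
  have h1 : IsEig ρ 1 (X ^ L.index) := by
    have h2 := hX.pow L.index
    rwa [show μ.1 ^ L.index = 1 from congrArg Subtype.val (char_pow_index hS μ)] at h2
  obtain ⟨c, hc⟩ := hS.irr.exists_scalar _ fun k => h1.commute_of_mem rfl
  have hc0 : c ≠ 0 := by
    rintro rfl
    haveI := hS.irr.nonempty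
    rw [zero_smul] at hc
    exact ((hX.isUnit hS.irr hX0).pow L.index).ne_zero hc
  obtain ⟨z, hz⟩ := IsAlgClosed.exists_pow_nat_eq (c⁻¹) (n := L.index)
    (Nat.pos_of_ne_zero (by obtain ⟨t, ht⟩ := hS.odd; omega))
  exact ⟨z • X, hX.smul z, by rw [smul_pow, hc, smul_smul, hz, inv_mul_cancel₀ hc0, one_smul]⟩

/-- A normalised eigen matrix, chosen. -/
noncomputable def f0 (hS : Setup L ρ) (μ : Lam L ρ) : Matrix n n ℂ :=
  Classical.choose (exists_nrm hS μ)

theorem f0_spec (hS : Setup L ρ) (μ : Lam L ρ) : Nrm L ρ μ.1 (f0 hS μ) :=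
  Classical.choose_spec (exists_nrm hS μ)

theorem exists_beta (hS : Setup L ρ) (μ ν : Lam L ρ) :
    ∃ b : ℂ, f0 hS μ * f0 hS ν = b • (f0 hS ν * f0 hS μ) := by
  have h1 := (f0_spec hS μ).1.mul (f0_spec hS ν).1
  have h2 := (f0_spec hS ν).1.mul (f0_spec hS μ).1
  rw [show ν.1 * μ.1 = μ.1 * ν.1 from MonoidHom.ext fun k => mul_comm _ _] at h2
  refine h2.exists_smul hS.irr ?_ h1
  haveI := hS.irr.nonempty
  exact (((f0_spec hS ν).1.isUnit hS.irr ((f0_spec hS ν).ne_zero hS)).mul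
    ((f0_spec hS μ).1.isUnit hS.irr ((f0_spec hS μ).ne_zero hS))).ne_zero

/-- The commutator pairing. -/
noncomputable def beta (hS : Setup L ρ) (μ ν : Lam L ρ) : ℂ :=
  Classical.choose (exists_beta hS μ ν)

theorem beta_spec (hS : Setup L ρ) {μ ν : Lam L ρ} {X Y : Matrix n n ℂ} (hX : IsEig ρ μ.1 X)
    (hY : IsEig ρ ν.1 Y) : X * Y = beta hS μ ν • (Y * X) := by
  obtain ⟨a, rfl⟩ := (f0_spec hS μ).1.exists_smul hS.irr ((f0_spec hS μ).ne_zero hS) hX
  obtain ⟨b, rfl⟩ := (f0_spec hS ν).1.exists_smul hS.irr ((f0_spec hS ν).ne_zero hS) hY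
  rw [Matrix.smul_mul, Matrix.mul_smul, Matrix.smul_mul, Matrix.mul_smul,
    show f0 hS μ * f0 hS ν = _ from Classical.choose_spec (exists_beta hS μ ν)]
  simp only [smul_smul]
  congr 1
  rw [show Classical.choose (exists_beta hS μ ν) = beta hS μ ν from rfl]
  ring

theorem beta_eq (hS : Setup L ρ) {μ ν : Lam L ρ} {X Y : Matrix n n ℂ} (hX : IsEig ρ μ.1 X)
    (hY : IsEig ρ ν.1 Y) (hX0 : X ≠ 0) (hY0 : Y ≠ 0) {b : ℂ} (h : X * Y = b • (Y * X)) :
    beta hS μ ν = b := by
  haveI := hS.irr.nonempty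
  refine smul_one_injective hS (X := Y * X) ?_ ((beta_spec hS hX hY).symm.trans h)
  exact ((hY.isUnit hS.irr hY0).mul (hX.isUnit hS.irr hX0)).ne_zero

theorem beta_self (hS : Setup L ρ) (μ : Lam L ρ) : beta hS μ μ = 1 :=
  beta_eq hS (f0_spec hS μ).1 (f0_spec hS μ).1 ((f0_spec hS μ).ne_zero hS)
    ((f0_spec hS μ).ne_zero hS) (by rw [one_smul])

theorem beta_mul_left (hS : Setup L ρ) (μ ν κ : Lam L ρ) :
    beta hS (μ * ν) κ = beta hS μ κ * beta hS ν κ := by
  haveI := hS.irr.nonempty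
  have hX := (f0_spec hS μ).1
  have hY := (f0_spec hS ν).1
  have hZ := (f0_spec hS κ).1
  refine beta_eq hS (hX.mul hY) hZ ?_ ((f0_spec hS κ).ne_zero hS) ?_
  · exact ((hX.isUnit hS.irr ((f0_spec hS μ).ne_zero hS)).mul
      (hY.isUnit hS.irr ((f0_spec hS ν).ne_zero hS))).ne_zero
  · rw [Matrix.mul_assoc, beta_spec hS hY hZ, Matrix.mul_smul, ← Matrix.mul_assoc,
      beta_spec hS hX hZ, Matrix.smul_mul, smul_smul, mul_comm, Matrix.mul_assoc]

theorem beta_mul_right (hS : Setup L ρ) (μ ν κ : Lam L ρ) :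
    beta hS μ (ν * κ) = beta hS μ ν * beta hS μ κ := by
  haveI := hS.irr.nonempty
  have hX := (f0_spec hS μ).1
  have hY := (f0_spec hS ν).1
  have hZ := (f0_spec hS κ).1
  refine beta_eq hS hX (hY.mul hZ) ((f0_spec hS μ).ne_zero hS) ?_ ?_
  · exact ((hY.isUnit hS.irr ((f0_spec hS ν).ne_zero hS)).mul
      (hZ.isUnit hS.irr ((f0_spec hS κ).ne_zero hS))).ne_zero
  · rw [← Matrix.mul_assoc, beta_spec hS hX hY, Matrix.smul_mul, Matrix.mul_assoc,
      beta_spec hS hX hZ, Matrix.mul_smul, smul_smul, Matrix.mul_assoc]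

theorem beta_one_left (hS : Setup L ρ) (μ : Lam L ρ) : beta hS 1 μ = 1 :=
  beta_eq hS (X := 1) isEig_one (f0_spec hS μ).1
    (by haveI := hS.irr.nonempty; exact one_ne_zero) ((f0_spec hS μ).ne_zero hS)
    (by rw [one_smul, Matrix.one_mul, Matrix.mul_one])

theorem beta_pow_index (hS : Setup L ρ) (μ ν : Lam L ρ) : beta hS μ ν ^ L.index = 1 := by
  have h : ∀ j : ℕ, beta hS (μ ^ j) ν = beta hS μ ν ^ j := by
    intro j
    induction j with
    | zero => rw [pow_zero, pow_zero, beta_one_left]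
    | succ j ih => rw [pow_succ, pow_succ, beta_mul_left, ih]
  rw [← h, char_pow_index hS, beta_one_left]

theorem beta_swap (hS : Setup L ρ) (μ ν : Lam L ρ) : beta hS μ ν * beta hS ν μ = 1 := by
  have h := beta_self hS (μ * ν)
  rwa [beta_mul_left, beta_mul_right, beta_mul_right, beta_self, beta_self, one_mul, mul_one] at h

/-- The square root of the commutator pairing. -/
noncomputable def gam (hS : Setup L ρ) (μ ν : Lam L ρ) : ℂ := beta hS μ ν ^ ((L.index + 1) / 2)

theorem gam_sq (hS : Setup L ρ) (μ ν : Lam L ρ) : gam hS μ ν * gam hS μ ν = beta hS μ ν := by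
  rw [gam, ← pow_add]
  obtain ⟨t, ht⟩ := hS.odd
  rw [show (L.index + 1) / 2 + (L.index + 1) / 2 = L.index + 1 by omega, pow_succ,
    beta_pow_index, one_mul]

theorem gam_mul_left (hS : Setup L ρ) (μ ν κ : Lam L ρ) :
    gam hS (μ * ν) κ = gam hS μ κ * gam hS ν κ := by rw [gam, beta_mul_left, mul_pow]; rfl

theorem gam_mul_right (hS : Setup L ρ) (μ ν κ : Lam L ρ) :
    gam hS μ (ν * κ) = gam hS μ ν * gam hS μ κ := by rw [gam, beta_mul_right, mul_pow]; rfl

theorem gam_self (hS : Setup L ρ) (μ : Lam L ρ) : gam hS μ μ = 1 := by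
  rw [gam, beta_self, one_pow]

theorem gam_swap (hS : Setup L ρ) (μ ν : Lam L ρ) : gam hS μ ν * gam hS ν μ = 1 := by
  rw [gam, gam, ← mul_pow, beta_swap, one_pow]

theorem gam_pow_index (hS : Setup L ρ) (μ ν : Lam L ρ) : gam hS μ ν ^ L.index = 1 := by
  rw [gam, ← pow_mul, mul_comm, pow_mul, beta_pow_index, one_pow]

theorem conj_gam (hS : Setup L ρ) (μ ν : Lam L ρ) :
    (starRingEnd ℂ) (gam hS μ ν) = gam hS ν μ := by
  have h1 : ‖gam hS μ ν‖ = 1 :=
    Complex.norm_eq_one_of_pow_eq_one (gam_pow_index hS μ ν)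
      (by obtain ⟨t, ht⟩ := hS.odd; omega)
  rw [← Complex.inv_eq_conj h1]
  exact (eq_inv_of_mul_eq_one_right (gam_swap hS μ ν)).symm

theorem gam_nondeg (hS : Setup L ρ) (μ : Lam L ρ) (h : ∀ ν, gam hS μ ν = 1) : μ = 1 := by
  haveI := hS.normal
  have hX := f0_spec hS μ
  obtain ⟨c, hc⟩ := hS.central (f0 hS μ) (fun l hl => hX.1.commute_of_mem (μ.2.1 l hl))
    fun Z hZ => by
      let P : Submodule ℂ (Matrix n n ℂ) :=
        { carrier := {Z | f0 hS μ * Z = Z * f0 hS μ}
          zero_mem' := by simp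
          add_mem' := fun {a b} (ha : f0 hS μ * a = a * f0 hS μ)
              (hb : f0 hS μ * b = b * f0 hS μ) => by
            show f0 hS μ * (a + b) = (a + b) * f0 hS μ
            rw [Matrix.mul_add, Matrix.add_mul, ha, hb]
          smul_mem' := fun c a (ha : f0 hS μ * a = a * f0 hS μ) => by
            show f0 hS μ * (c • a) = (c • a) * f0 hS μ
            rw [Matrix.mul_smul, Matrix.smul_mul, ha] }
      refine commutant_induction hS.irr hS.comm P (fun ν hν Y hY => ?_) Z hZ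
      show f0 hS μ * Y = Y * f0 hS μ
      rw [beta_spec hS (ν := ⟨ν, hν⟩) hX.1 hY, ← gam_sq, h, one_mul, one_smul]
  have hc0 : c ≠ 0 := fun h0 => hX.ne_zero hS (by rw [hc, h0, zero_smul])
  exact Subtype.ext (eq_one_of_isEig_smul_one hS.irr hc0 (hc ▸ hX.1))

theorem nrm_mul (hS : Setup L ρ) {μ ν : Lam L ρ} {X Y : Matrix n n ℂ} (hX : Nrm L ρ μ.1 X)
    (hY : Nrm L ρ ν.1 Y) : Nrm L ρ (μ * ν).1 (gam hS ν μ • (X * Y)) := by
  refine ⟨(hX.1.mul hY.1).smul _, ?_⟩
  have hcomm : ∀ j : ℕ, Y * X ^ j = beta hS ν μ ^ j • (X ^ j * Y) := by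
    intro j
    induction j with
    | zero => simp
    | succ j ih =>
      rw [pow_succ X, ← Matrix.mul_assoc, ih, Matrix.smul_mul, Matrix.mul_assoc,
        beta_spec hS hY.1 hX.1, Matrix.mul_smul, smul_smul, ← pow_succ, Matrix.mul_assoc]
  have hpow : ∀ j : ℕ, (X * Y) ^ j = beta hS ν μ ^ j.choose 2 • (X ^ j * Y ^ j) := by
    intro j
    induction j with
    | zero => simp
    | succ j ih =>
      rw [pow_succ' (X * Y), ih, Matrix.mul_smul, ← Matrix.mul_assoc, Matrix.mul_assoc X Y,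
        hcomm j, Matrix.mul_smul, Matrix.smul_mul, smul_smul, ← Matrix.mul_assoc, ← pow_succ' X,
        Matrix.mul_assoc, ← pow_succ' Y, ← pow_add, Nat.choose_succ_succ, Nat.choose_one_right,
        add_comm j (j.choose _)]
  rw [smul_pow, hpow, hX.2, hY.2, Matrix.one_mul, gam_pow_index, one_smul]
  obtain ⟨t, ht⟩ := hS.odd
  rw [Nat.choose_two_right, show L.index * (L.index - 1) / 2 = L.index * t by
    rw [ht, show 2 * t + 1 - 1 = t * 2 by omega, ← mul_assoc, Nat.mul_div_cancel _ two_pos],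
    pow_mul, beta_pow_index, one_pow, one_smul]

/-- The normalised eigen matrices with their twisted product. -/
@[ext]
structure Wey (hS : Setup L ρ) where
  /-- The character. -/
  chr : Lam L ρ
  /-- The matrix. -/
  mat : Matrix n n ℂ
  /-- Normalised. -/
  nrm : Nrm L ρ chr.1 mat

variable (hS : Setup L ρ)

noncomputable instance : CommGroup (Wey hS) where
  mul a b := ⟨a.chr * b.chr, gam hS b.chr a.chr • (a.mat * b.mat), nrm_mul hS a.nrm b.nrm⟩
  one := ⟨1, 1, isEig_one, one_pow _⟩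
  inv a := ⟨a.chr⁻¹, a.mat ^ (L.index - 1), by
    constructor
    · have h := a.nrm.1.pow (L.index - 1)
      have h3 : a.chr ^ (L.index - 1) = a.chr⁻¹ := by
        apply eq_inv_of_mul_eq_one_left
        rw [← pow_succ, show L.index - 1 + 1 = L.index by obtain ⟨t, ht⟩ := hS.odd; omega,
          char_pow_index hS]
      have h2 : a.chr.1 ^ (L.index - 1) = (a.chr⁻¹).1 := by
        rw [← h3, SubgroupClass.coe_pow]
      rwa [h2] at h
    · rw [← pow_mul, mul_comm, pow_mul, a.nrm.2, one_pow]⟩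
  mul_assoc a b c := by
    refine Wey.ext (mul_assoc _ _ _) ?_
    show gam hS c.chr (a.chr * b.chr) • ((gam hS b.chr a.chr • (a.mat * b.mat)) * c.mat) =
      gam hS (b.chr * c.chr) a.chr • (a.mat * (gam hS c.chr b.chr • (b.mat * c.mat)))
    rw [Matrix.smul_mul, Matrix.mul_smul, smul_smul, smul_smul, gam_mul_left, gam_mul_right,
      Matrix.mul_assoc]
    congr 1
    ring
  one_mul a := by
    refine Wey.ext (one_mul _) ?_
    show gam hS a.chr 1 • (1 * a.mat) = a.mat
    have h : gam hS a.chr 1 = 1 := by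
      have h1 := gam_swap hS 1 a.chr
      rwa [gam, beta_one_left, one_pow, one_mul] at h1
    rw [h, one_smul, Matrix.one_mul]
  mul_one a := by
    refine Wey.ext (mul_one _) ?_
    show gam hS 1 a.chr • (a.mat * 1) = a.mat
    rw [gam, beta_one_left, one_pow, one_smul, Matrix.mul_one]
  inv_mul_cancel a := by
    refine Wey.ext (inv_mul_cancel _) ?_
    show gam hS a.chr a.chr⁻¹ • (a.mat ^ (L.index - 1) * a.mat) = 1
    have h : gam hS a.chr a.chr⁻¹ = 1 := by
      have h1 : gam hS a.chr (a.chr * a.chr⁻¹) = gam hS a.chr a.chr * gam hS a.chr a.chr⁻¹ :=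
        gam_mul_right hS _ _ _
      have h2 : gam hS a.chr 1 = 1 := by
        have h3 := gam_swap hS 1 a.chr
        rwa [gam, beta_one_left, one_pow, one_mul] at h3
      rwa [mul_inv_cancel, h2, gam_self, one_mul, eq_comm] at h1
    rw [h, one_smul, ← pow_succ,
      show L.index - 1 + 1 = L.index by obtain ⟨t, ht⟩ := hS.odd; omega, a.nrm.2]
  mul_comm a b := by
    refine Wey.ext (mul_comm _ _) ?_
    show gam hS b.chr a.chr • (a.mat * b.mat) = gam hS a.chr b.chr • (b.mat * a.mat)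
    rw [beta_spec hS a.nrm.1 b.nrm.1, ← gam_sq, smul_smul, ← mul_assoc, gam_swap, one_mul]

theorem wey_mul_chr (a b : Wey hS) : (a * b).chr = a.chr * b.chr := rfl

theorem wey_mul_mat (a b : Wey hS) :
    (a * b).mat = gam hS b.chr a.chr • (a.mat * b.mat) := rfl

/-- The projection. -/
noncomputable def chrHom : Wey hS →* Lam L ρ where
  toFun := Wey.chr
  map_one' := rfl
  map_mul' _ _ := rfl

theorem wey_pow_index (a : Wey hS) : a ^ L.index = 1 := by
  have h : ∀ j : ℕ, (a ^ j).chr = a.chr ^ j ∧ (a ^ j).mat = a.mat ^ j := by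
    intro j
    induction j with
    | zero => simp only [pow_zero]; exact ⟨rfl, rfl⟩
    | succ j ih =>
      rw [pow_succ, wey_mul_chr, wey_mul_mat, ih.1, ih.2, ← pow_succ, ← pow_succ]
      refine ⟨rfl, ?_⟩
      have hp : ∀ i : ℕ, gam hS a.chr (a.chr ^ i) = 1 := by
        intro i
        induction i with
        | zero =>
          have h3 := gam_swap hS 1 a.chr
          rw [gam, beta_one_left, one_pow, one_mul] at h3
          rw [pow_zero]; exact h3
        | succ i ih2 => rw [pow_succ, gam_mul_right, ih2, gam_self, one_mul]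
      rw [hp, one_smul]
  exact Wey.ext ((h _).1.trans (char_pow_index hS _)) ((h _).2.trans a.nrm.2)

/-- Automorphisms act on the characters. -/
noncomputable def lamMap (σ : stabAut ρ L) : Lam L ρ →* Lam L ρ where
  toFun μ := ⟨pullChar σ.1 μ.1, pullChar_mem σ.2 μ.2⟩
  map_one' := Subtype.ext (map_one _)
  map_mul' μ ν := Subtype.ext (map_mul (pullChar σ.1) _ _)

theorem lamMap_mul (σ τ : stabAut ρ L) (μ : Lam L ρ) :
    lamMap (σ * τ) μ = lamMap σ (lamMap τ μ) := Subtype.ext (pullChar_mul _ _ _)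

theorem lamMap_one (μ : Lam L ρ) : lamMap (1 : stabAut ρ L) μ = μ :=
  Subtype.ext (pullChar_one _)

theorem beta_lamMap (σ : stabAut ρ L) (μ ν : Lam L ρ) :
    beta hS (lamMap σ μ) (lamMap σ ν) = beta hS μ ν := by
  haveI := hS.irr.nonempty
  have hne : ∀ κ : Lam L ρ, alpha hS.irr σ (f0 hS κ) ≠ 0 := fun κ h =>
    (f0_spec hS κ).ne_zero hS (alpha_injective hS.irr σ (by rw [h, map_zero]))
  refine beta_eq hS (alpha_isEig hS.irr σ (f0_spec hS μ).1)
    (alpha_isEig hS.irr σ (f0_spec hS ν).1) (hne μ) (hne ν) ?_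
  rw [← map_mul, beta_spec hS (f0_spec hS μ).1 (f0_spec hS ν).1, map_smul, map_mul]

theorem gam_lamMap (σ : stabAut ρ L) (μ ν : Lam L ρ) :
    gam hS (lamMap σ μ) (lamMap σ ν) = gam hS μ ν := by rw [gam, beta_lamMap]; rfl

/-- Automorphisms act on the normalised eigen matrices. -/
noncomputable def weyMap (σ : stabAut ρ L) : Wey hS →* Wey hS where
  toFun a := ⟨lamMap σ a.chr, alpha hS.irr σ a.mat, alpha_isEig hS.irr σ a.nrm.1,
    by rw [← map_pow, a.nrm.2, map_one]⟩
  map_one' := Wey.ext (map_one _) (map_one _)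
  map_mul' a b := Wey.ext (map_mul _ _ _) (by
    show alpha hS.irr σ (gam hS b.chr a.chr • (a.mat * b.mat)) =
      gam hS (lamMap σ b.chr) (lamMap σ a.chr) • (alpha hS.irr σ a.mat * alpha hS.irr σ b.mat)
    rw [gam_lamMap, map_smul, map_mul])

theorem weyMap_mul (σ τ : stabAut ρ L) (a : Wey hS) :
    weyMap hS (σ * τ) a = weyMap hS σ (weyMap hS τ a) :=
  Wey.ext (lamMap_mul σ τ _) (alpha_mul hS.irr σ τ _)

/-- What the parity argument needs. -/
structure Section (hS : Setup L ρ) where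
  /-- The section. -/
  sec : Lam L ρ → Matrix n n ℂ
  sec_eig : ∀ μ, IsEig ρ μ.1 (sec μ)
  sec_ne : ∀ μ, sec μ ≠ 0
  sec_one : sec 1 = 1
  sec_mul : ∀ μ ν, sec μ * sec ν = gam hS μ ν • sec (μ * ν)

/-- The automorphisms for which a section is equivariant. -/
def Section.equiv {hS : Setup L ρ} (s : Section hS) : Subgroup (stabAut ρ L) where
  carrier := {σ | ∀ μ, alpha hS.irr σ (s.sec μ) = s.sec (lamMap σ μ)}
  one_mem' := fun μ => by rw [alpha_one, lamMap_one]
  mul_mem' := fun {σ τ} hσ hτ μ => by rw [alpha_mul, hτ, hσ, lamMap_mul]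
  inv_mem' := fun {σ} hσ μ => alpha_injective hS.irr σ (by
    rw [← alpha_mul, mul_inv_cancel, alpha_one, hσ, ← lamMap_mul, mul_inv_cancel, lamMap_one])

theorem Section.inner_mem {hS : Setup L ρ} (s : Section hS) (σ : stabAut ρ L) (x : K) (hx : x ∈ L)
    (h : ∀ k, σ.1 k = x * k * x⁻¹) : σ ∈ s.equiv := by
  intro μ
  have h1 : lamMap σ μ = μ := by
    refine Subtype.ext (MonoidHom.ext fun k => ?_)
    show μ.1 (σ.1.symm k) = μ.1 k
    conv_rhs => rw [← σ.1.apply_symm_apply k, h]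
    rw [map_mul, map_mul, μ.2.1 x hx, one_mul, μ.2.1 _ (inv_mem hx), mul_one]
  rw [h1, alpha_inner hS.irr σ x h, (s.sec_eig μ).commute_of_mem (μ.2.1 x hx), Matrix.mul_assoc,
    rep_mul_inv, Matrix.mul_one]

/-- A coprime group without fixed points on the section gives the equivariant section. -/
theorem exists_section {A : Type*} [Group A] [Fintype A] (act : A →* stabAut ρ L)
    (hcop : (Nat.card A).Coprime L.index)
    (hfix : ∀ μ : Lam L ρ, (∀ a, lamMap (act a) μ = μ) → μ = 1) :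
    ∃ s : Section hS, ∀ σ : stabAut ρ L, (∀ a, Commute σ (act a)) → σ ∈ s.equiv := by
  obtain ⟨m, -, hm⟩ : ∃ m, m < L.index + 1 ∧ m * Nat.card A ≡ 1 [MOD L.index] := by
    obtain ⟨j, hj⟩ := CfsgLib.Coprime.exists_mul_modEq_one hcop
    refine ⟨j % L.index, ?_, ?_⟩
    · have : 0 < L.index := by obtain ⟨t, ht⟩ := hS.odd; omega
      have := Nat.mod_lt j this
      omega
    · exact ((Nat.mod_modEq j L.index).mul_right _).trans hj
  have hpow : ∀ (w : Wey hS) {i j : ℕ}, i ≡ j [MOD L.index] → w ^ i = w ^ j := fun w i j h =>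
    pow_eq_pow_iff_modEq.2 (h.of_dvd (orderOf_dvd_of_pow_eq_one (wey_pow_index hS w)))
  let nm : Wey hS →* Wey hS :=
    { toFun := fun w => (∏ a : A, weyMap hS (act a) w) ^ m
      map_one' := by simp
      map_mul' := fun v w => by simp only [map_mul, Finset.prod_mul_distrib, mul_pow] }
  have hnmfix : ∀ a w, weyMap hS (act a) (∏ b : A, weyMap hS (act b) w) =
      ∏ b : A, weyMap hS (act b) w := by
    intro a w
    rw [map_prod]
    refine Fintype.prod_equiv (Equiv.mulLeft a) _ _ fun b => ?_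
    rw [Equiv.coe_mulLeft, map_mul, weyMap_mul]
  have hchr : ∀ w, (nm w).chr = 1 := by
    intro w
    have h1 : (∏ b : A, weyMap hS (act b) w).chr = 1 :=
      hfix _ fun a => congrArg Wey.chr (hnmfix a w)
    show chrHom hS ((∏ b : A, weyMap hS (act b) w) ^ m) = 1
    rw [map_pow, show chrHom hS (∏ b : A, weyMap hS (act b) w) = 1 from h1, one_pow]
  have hker : ∀ z : Wey hS, z.chr = 1 → nm z = z := by
    intro z hz
    have hfixz : ∀ a, weyMap hS (act a) z = z := by
      intro a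
      obtain ⟨c, hc⟩ := hS.irr.exists_scalar z.mat fun k =>
        z.nrm.1.commute_of_mem (by rw [hz]; rfl)
      refine Wey.ext ?_ ?_
      · show lamMap (act a) z.chr = z.chr
        rw [hz, map_one]
      · show alpha hS.irr (act a) z.mat = z.mat
        rw [hc, map_smul, map_one]
    show (∏ a : A, weyMap hS (act a) z) ^ m = z
    simp only [hfixz]
    rw [Finset.prod_const, Finset.card_univ, ← pow_mul, ← Nat.card_eq_fintype_card]
    conv_rhs => rw [← pow_one z]
    exact hpow z (by rw [mul_comm]; exact hm)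
  let lift : Lam L ρ → Wey hS := fun μ => ⟨μ, f0 hS μ, f0_spec hS μ⟩
  let S : Lam L ρ → Wey hS := fun μ => lift μ * (nm (lift μ))⁻¹
  have hS1 : ∀ w : Wey hS, w * (nm w)⁻¹ = S w.chr := by
    intro w
    have h1 : (w * (lift w.chr)⁻¹).chr = 1 := by
      rw [wey_mul_chr]
      exact mul_inv_cancel w.chr
    have h2 := hker _ h1
    rw [map_mul, map_inv] at h2
    show w * (nm w)⁻¹ = lift w.chr * (nm (lift w.chr))⁻¹
    rw [← div_eq_mul_inv, ← div_eq_mul_inv, div_eq_div_iff_mul_eq_mul]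
    rw [← div_eq_mul_inv, ← div_eq_mul_inv, div_eq_div_iff_mul_eq_mul] at h2
    rw [mul_comm (lift w.chr)]
    exact h2.symm
  have hScoe : ∀ μ, (S μ).chr = μ := by
    intro μ
    show chrHom hS (lift μ * (nm (lift μ))⁻¹) = μ
    rw [map_mul, map_inv, show chrHom hS (nm (lift μ)) = 1 from hchr _, inv_one, mul_one]
    rfl
  have hSmul : ∀ μ ν, S (μ * ν) = S μ * S ν := by
    intro μ ν
    have h := hS1 (lift μ * lift ν)
    rw [map_mul] at h
    rw [show S (μ * ν) = _ from h.symm]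
    show _ = lift μ * (nm (lift μ))⁻¹ * (lift ν * (nm (lift ν))⁻¹)
    rw [mul_inv, mul_mul_mul_comm]
  have hSone : S 1 = 1 := by
    have h := hS1 (1 : Wey hS)
    rw [map_one, inv_one, mul_one] at h
    exact h.symm
  refine ⟨⟨fun μ => (S μ).mat, fun μ => ?_, fun μ => (S μ).nrm.ne_zero hS, ?_, ?_⟩, ?_⟩
  · have h := (S μ).nrm.1
    rwa [hScoe] at h
  · rw [hSone]; rfl
  · intro μ ν
    rw [show (S (μ * ν)).mat = _ from congrArg Wey.mat (hSmul μ ν), wey_mul_mat hS (S μ) (S ν),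
      hScoe, hScoe, smul_smul, gam_swap, one_smul]
  · intro σ hσ μ
    have h1 : ∀ w, nm (weyMap hS σ w) = weyMap hS σ (nm w) := by
      intro w
      show (∏ a : A, weyMap hS (act a) (weyMap hS σ w)) ^ m =
        weyMap hS σ ((∏ a : A, weyMap hS (act a) w) ^ m)
      rw [map_pow, map_prod]
      congr 1
      refine Finset.prod_congr rfl fun a _ => ?_
      rw [← weyMap_mul, ← weyMap_mul, (hσ a).eq]
    have h2 : weyMap hS σ (S μ) = S (lamMap σ μ) := by
      rw [← hS1 (lift μ), map_mul, map_inv, ← h1, hS1]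
      rfl
    exact congrArg Wey.mat h2

end CfsgLib.OddSection
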